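import Cfsg.Agent.H492.Fi24P.Pair

/-!
# `Fi24` on the commuting pairs of transpositions: every pair is conjugate to one of 13 (helper492)
-/

set_option autoImplicit false
set_option maxRecDepth 100000

namespace Cfsg.Agent.H492.Fi24P.Can

open Cfsg Cfsg.Agent.Lib.PermNet Cfsg.Agent.Lib.PermNetOrbit Cfsg.Agent.Lib.PermNetPt
open Cfsg.Agent.Fischer.Fi24RepDef Cfsg.Agent.Fischer.Fi24Rep Cfsg.Agent.Fischer.Fi24RepOrbData
open Cfsg.Agent.Fischer.Fi24RepOrb (UG H orbW orbG)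
open Cfsg.Agent.KFacts.FiTF.Pts Cfsg.Agent.KFacts.FiTF.FixMask
open Cfsg.Agent.H492.Fi24P.Chk Cfsg.Agent.H492.Fi24P.Pair
open Cfsg.Spor (Fi24)
open Cfsg.Spor.Fi24 (Gen)

theorem orb_of {ws gens : List (List Gen)} (hsub : ∀ l ∈ ws, l ∈ gens) {qs : List ℕ}
    (hfix : ∀ q ∈ qs, fixB (nws gens) q = true) {r p0 p : ℕ} (h : (sat (nws ws) r (2 ^ p0)).testBit p = true) :
    ∃ g : Fi24, (∀ q ∈ qs, rho g q = q) ∧ rho g p = p0 := by
  obtain ⟨f, ⟨g, hg, rfl⟩, hf⟩ := sat_point_spec (K := (stabL rho qs).map rho) (nws_ok ws) (by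
    intro w hw
    obtain ⟨l, hl, rfl⟩ := List.mem_map.1 hw
    refine ⟨word l, ?_, rho_word l⟩
    intro q hq
    rw [rho_word]
    exact fixB_spec (nws_ok gens) (hfix q hq) _ (List.mem_map_of_mem (hsub l hl))) r h
  refine ⟨g⁻¹, fun q hq => ?_, ?_⟩
  · rw [map_inv, Equiv.Perm.inv_eq_iff_eq]
    exact (hg q hq).symm
  · rw [← hf, map_inv, inv_app]

theorem cov_of {T O : ℕ} (h : Nat.beq (Nat.land T O) T = true) {p : ℕ} (hp : T.testBit p = true) :
    O.testBit p = true := by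
  have h1 : T &&& O = T := Nat.eq_of_beq_eq_true h
  have h2 := congrArg (fun x => Nat.testBit x p) h1
  simp only [Nat.testBit_and] at h2
  rw [hp, Bool.true_and] at h2
  exact h2

theorem and_bit {A B p : ℕ} (ha : A.testBit p = true) (hb : B.testBit p = true) : (Nat.land A B).testBit p = true := by
  show (A &&& B).testBit p = true
  rw [Nat.testBit_and, ha, hb]; rfl

/-! ### Representatives -/

/-- The representatives. -/
def rp : Fin 13 → Sym2 ℕ := ![s(0, 1), s(0, 3), s(0, 193), s(3, 2), s(3, 193), s(3, 307872), s(193, 199),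
  s(193, 308002), s(193, 279083), s(193, 307872), s(307872, 307841), s(307872, 307842), s(307872, 305410)]

/-- conjugate to a representative -/
def Can (c d : ℕ) : Prop := ∃ (g : Fi24) (j : Fin 13), St g ∧ s(rho g c, rho g d) = rp j

theorem Can.symm {c d : ℕ} (h : Can c d) : Can d c := by
  obtain ⟨g, j, hg, hj⟩ := h
  exact ⟨g, j, hg, by rw [Sym2.eq_swap]; exact hj⟩

theorem Can.of_smul {c d : ℕ} {g : Fi24} (hg : St g) (h : Can (rho g c) (rho g d)) : Can c d := by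
  obtain ⟨k, j, hk, hj⟩ := h
  refine ⟨k * g, j, hk.mul hg, ?_⟩
  rw [map_mul, Equiv.Perm.mul_apply, Equiv.Perm.mul_apply]
  exact hj

/-! ### The first point -/

theorem mv3 {c : ℕ} (h : ty c = 3) : ∃ g : Fi24, rho g 0 = 0 ∧ rho g 1 = 1 ∧ rho g c = 3 := by
  obtain ⟨g, hg, hc⟩ := orb_of (qs := [0, 1]) sF3_sub (by
    intro q hq
    simp only [List.mem_cons, List.not_mem_nil, or_false] at hq
    rcases hq with rfl | rfl
    · exact fix_g0_0
    · exact fix_g0_1) (cov_of covF3 (ty_three.1 h))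
  exact ⟨g, hg 0 (by simp), hg 1 (by simp), hc⟩

theorem mv1 {c : ℕ} (h : ty c = 1) : ∃ g : Fi24, rho g 0 = 0 ∧ rho g 1 = 1 ∧ rho g c = 193 := by
  obtain ⟨g, hg, hc⟩ := orb_of (qs := [0, 1]) sF1_sub (by
    intro q hq
    simp only [List.mem_cons, List.not_mem_nil, or_false] at hq
    rcases hq with rfl | rfl
    · exact fix_g0_0
    · exact fix_g0_1) (cov_of covF1 (ty_one.1 h))
  exact ⟨g, hg 0 (by simp), hg 1 (by simp), hc⟩

theorem mv0 {c : ℕ} (hc : UG.testBit c = true) (h : ty c = 0) :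
    ∃ g : Fi24, rho g 0 = 0 ∧ rho g 1 = 1 ∧ rho g c = 307872 := by
  obtain ⟨g, hg, hc⟩ := orb_of (qs := [0, 1]) sF0_sub (by
    intro q hq
    simp only [List.mem_cons, List.not_mem_nil, or_false] at hq
    rcases hq with rfl | rfl
    · exact fix_g0_0
    · exact fix_g0_1) (cov_of covF0 ((ty_zero hc).1 h))
  exact ⟨g, hg 0 (by simp), hg 1 (by simp), hc⟩

theorem ty_sw (p : ℕ) : ty (rho (word sw) p) = tsw (ty p) := ty_swap sw0 sw1 p

/-! ### First point 0 -/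

theorem can0 {d : ℕ} (h : Adj 0 d) : Can 0 d := by
  by_cases h4 : ty d = 4
  · rcases ty_four.1 h4 with rfl | rfl
    · exact absurd rfl h.ne
    · exact ⟨1, 0, St.one, by simp [rp]⟩
  by_cases h3 : ty d = 3
  · obtain ⟨g, g0, g1, gd⟩ := mv3 h3
    exact ⟨g, 1, Or.inl ⟨g0, g1⟩, by rw [g0, gd]; rfl⟩
  have h1 : ty d = 1 := by
    have hb := (adj_zero d).1 h
    have h0 : ¬ (d = 0 ∨ d = 1) := fun e => h4 (ty_four.2 e)
    have e := ty_eq d
    rw [if_neg h0] at e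
    by_cases hn : N1.testBit d = true
    · rw [if_pos ⟨hb, hn⟩] at e
      exact absurd e h3
    · rw [if_neg (fun hh => hn hh.2), if_pos hb] at e
      exact e
  obtain ⟨g, g0, g1, gd⟩ := mv1 h1
  exact ⟨g, 2, Or.inl ⟨g0, g1⟩, by rw [g0, gd]; rfl⟩

/-! ### First point 3 -/

theorem fixe : ∀ q ∈ [0, 1, 3], fixB (nws ge) q = true := by
  intro q hq
  simp only [List.mem_cons, List.not_mem_nil, or_false] at hq
  rcases hq with rfl | rfl | rfl
  · exact fix_ge_0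
  · exact fix_ge_1
  · exact fix_ge_3

theorem adj3 (d : ℕ) : Adj 3 d ↔ (nb u3).testBit d = true := adj_word (rho_of_chkPt chk_u3) d
theorem adj193 (d : ℕ) : Adj 193 d ↔ (nb u193).testBit d = true := adj_word (rho_of_chkPt chk_u193) d
theorem adj307872 (d : ℕ) : Adj 307872 d ↔ (nb u307872).testBit d = true := adj_word (rho_of_chkPt chk_u307872) d

theorem can3_one {d : ℕ} (h : Adj 3 d) (h1 : ty d = 1) : Can 3 d := by
  obtain ⟨g, hg, hd⟩ := orb_of (qs := [0, 1, 3]) sS31_sub fixe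
    (cov_of covS31 (and_bit ((adj3 d).1 h) (ty_one.1 h1)))
  exact ⟨g, 4, Or.inl ⟨hg 0 (by simp), hg 1 (by simp)⟩, by rw [hg 3 (by simp), hd]; rfl⟩

theorem can3 {d : ℕ} (h : Adj 3 d) (h4 : ty d ≠ 4) : Can 3 d := by
  have hU : UG.testBit d = true := h.symm.bitUG
  rcases (show ty d = 0 ∨ ty d = 1 ∨ ty d = 2 ∨ ty d = 3 ∨ ty d = 4 by
    generalize ty d = t; revert t; decide) with h0 | h0 | h0 | h0 | h0
  · obtain ⟨g, hg, hd⟩ := orb_of (qs := [0, 1, 3]) sS30_sub fixe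
      (cov_of covS30 (and_bit ((adj3 d).1 h) ((ty_zero hU).1 h0)))
    exact ⟨g, 5, Or.inl ⟨hg 0 (by simp), hg 1 (by simp)⟩, by rw [hg 3 (by simp), hd]; rfl⟩
  · exact can3_one h h0
  · have h1 := h.smul (word sw)
    rw [sw3] at h1
    have h2 : ty (rho (word sw) d) = 1 := by rw [ty_sw, h0]; rfl
    have h3 := can3_one h1 h2
    apply Can.of_smul St.sw
    rw [sw3]
    exact h3
  · obtain ⟨g, hg, hd⟩ := orb_of (qs := [0, 1, 3]) sS33_sub fixe
      (cov_of covS33 (and_bit ((adj3 d).1 h) (ty_three.1 h0)))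
    exact ⟨g, 3, Or.inl ⟨hg 0 (by simp), hg 1 (by simp)⟩, by rw [hg 3 (by simp), hd]; rfl⟩
  · exact absurd h0 h4

/-! ### First point 193 -/

theorem fixb : ∀ q ∈ [0, 1, 193], fixB (nws gb) q = true := by
  intro q hq
  simp only [List.mem_cons, List.not_mem_nil, or_false] at hq
  rcases hq with rfl | rfl | rfl
  · exact fix_gb_0
  · exact fix_gb_1
  · exact fix_gb_193

theorem or_bit {A B p : ℕ} (h : (Nat.lor A B).testBit p = true) : A.testBit p = true ∨ B.testBit p = true := by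
  have h1 : (A ||| B).testBit p = true := h
  rw [Nat.testBit_or, Bool.or_eq_true] at h1
  exact h1

theorem S12 {d : ℕ} (h : Adj 193 d) (h2 : ty d = 2) : OS12a.testBit d = true ∨ OS12b.testBit d = true :=
  or_bit (cov_of covS12 (and_bit ((adj193 d).1 h) (ty_two.1 h2)))

theorem S12a {d : ℕ} (h : OS12a.testBit d = true) :
    ∃ g : Fi24, rho g 0 = 0 ∧ rho g 1 = 1 ∧ rho g 193 = 193 ∧ rho g d = 308002 := by
  obtain ⟨g, hg, hd⟩ := orb_of (qs := [0, 1, 193]) sS12a_sub fixb h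
  exact ⟨g, hg 0 (by simp), hg 1 (by simp), hg 193 (by simp), hd⟩

theorem S12b {d : ℕ} (h : OS12b.testBit d = true) :
    ∃ g : Fi24, rho g 0 = 0 ∧ rho g 1 = 1 ∧ rho g 193 = 193 ∧ rho g d = 279083 := by
  obtain ⟨g, hg, hd⟩ := orb_of (qs := [0, 1, 193]) sS12b_sub fixb h
  exact ⟨g, hg 0 (by simp), hg 1 (by simp), hg 193 (by simp), hd⟩

theorem can193 {d : ℕ} (h : Adj 193 d) (h4 : ty d = 0 ∨ ty d = 1 ∨ ty d = 2) : Can 193 d := by
  have hU : UG.testBit d = true := h.symm.bitUG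
  rcases h4 with h0 | h0 | h0
  · obtain ⟨g, hg, hd⟩ := orb_of (qs := [0, 1, 193]) sS10_sub fixb
      (cov_of covS10 (and_bit ((adj193 d).1 h) ((ty_zero hU).1 h0)))
    exact ⟨g, 9, Or.inl ⟨hg 0 (by simp), hg 1 (by simp)⟩, by rw [hg 193 (by simp), hd]; rfl⟩
  · obtain ⟨g, hg, hd⟩ := orb_of (qs := [0, 1, 193]) sS11_sub fixb
      (cov_of covS11 (and_bit ((adj193 d).1 h) (ty_one.1 h0)))
    exact ⟨g, 6, Or.inl ⟨hg 0 (by simp), hg 1 (by simp)⟩, by rw [hg 193 (by simp), hd]; rfl⟩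
  · rcases S12 h h0 with h1 | h1
    · obtain ⟨g, g0, g1, g2, g3⟩ := S12a h1
      exact ⟨g, 7, Or.inl ⟨g0, g1⟩, by rw [g2, g3]; rfl⟩
    · obtain ⟨g, g0, g1, g2, g3⟩ := S12b h1
      exact ⟨g, 8, Or.inl ⟨g0, g1⟩, by rw [g2, g3]; rfl⟩

/-! ### First point 307872 -/

theorem fixk : ∀ q ∈ [0, 1, 307872], fixB (nws gk) q = true := by
  intro q hq
  simp only [List.mem_cons, List.not_mem_nil, or_false] at hq
  rcases hq with rfl | rfl | rfl
  · exact fix_gk_0
  · exact fix_gk_1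
  · exact fix_gk_307872

theorem canK {d : ℕ} (h : Adj 307872 d) (h0 : ty d = 0) : Can 307872 d := by
  have hU : UG.testBit d = true := h.symm.bitUG
  rcases or_bit (cov_of covS0 (and_bit ((adj307872 d).1 h) ((ty_zero hU).1 h0))) with h1 | h1
  · rcases or_bit h1 with h2 | h2
    · obtain ⟨g, hg, hd⟩ := orb_of (qs := [0, 1, 307872]) sS0b_sub fixk h2
      exact ⟨g, 11, Or.inl ⟨hg 0 (by simp), hg 1 (by simp)⟩, by rw [hg 307872 (by simp), hd]; rfl⟩
    · obtain ⟨g, hg, hd⟩ := orb_of (qs := [0, 1, 307872]) sS0c_sub fixk h2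
      exact ⟨g, 12, Or.inl ⟨hg 0 (by simp), hg 1 (by simp)⟩, by rw [hg 307872 (by simp), hd]; rfl⟩
  · have h3 : d = 307841 := by
      rw [Nat.testBit_two_pow, decide_eq_true_eq] at h1
      exact h1.symm
    subst h3
    exact ⟨1, 10, St.one, by simp [rp]⟩

/-! ### All pairs -/

theorem canA {c d : ℕ} (h : Adj c d) (h4 : ty c = 4) : Can c d := by
  rcases ty_four.1 h4 with rfl | rfl
  · exact can0 h
  · have h1 := h.smul (word sw)
    rw [sw1] at h1
    apply Can.of_smul St.sw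
    rw [sw1]
    exact can0 h1

theorem canB {c d : ℕ} (h : Adj c d) (h3 : ty c = 3) (hd : ty d ≠ 4) : Can c d := by
  obtain ⟨g, g0, g1, gc⟩ := mv3 h3
  have h1 := h.smul g
  rw [gc] at h1
  apply Can.of_smul (Or.inl ⟨g0, g1⟩ : St g)
  rw [gc]
  exact can3 h1 (by rw [ty_fix g0 g1]; exact hd)

theorem canC {c d : ℕ} (h : Adj c d) (h3 : ty c = 1) (hd : ty d = 0 ∨ ty d = 1 ∨ ty d = 2) : Can c d := by
  obtain ⟨g, g0, g1, gc⟩ := mv1 h3
  have h1 := h.smul g
  rw [gc] at h1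
  apply Can.of_smul (Or.inl ⟨g0, g1⟩ : St g)
  rw [gc]
  exact can193 h1 (by rw [ty_fix g0 g1]; exact hd)

theorem canC' {c d : ℕ} (h : Adj c d) (h3 : ty c = 2) (hd : ty d = 0 ∨ ty d = 1 ∨ ty d = 2) : Can c d := by
  apply Can.of_smul St.sw
  refine canC (h.smul (word sw)) (by rw [ty_sw, h3]; rfl) ?_
  rw [ty_sw]
  rcases hd with hd | hd | hd <;> rw [hd] <;> simp [tsw]

theorem canD {c d : ℕ} (h : Adj c d) (h3 : ty c = 0) (hd : ty d = 0) : Can c d := by
  obtain ⟨g, g0, g1, gc⟩ := mv0 h.bitUG h3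
  have h1 := h.smul g
  rw [gc] at h1
  apply Can.of_smul (Or.inl ⟨g0, g1⟩ : St g)
  rw [gc]
  exact canK h1 (by rw [ty_fix g0 g1]; exact hd)

theorem can {c d : ℕ} (h : Adj c d) : Can c d := by
  by_cases c4 : ty c = 4
  · exact canA h c4
  by_cases d4 : ty d = 4
  · exact (canA h.symm d4).symm
  by_cases c3 : ty c = 3
  · exact canB h c3 d4
  by_cases d3 : ty d = 3
  · exact (canB h.symm d3 c4).symm
  have key : ∀ t : Fin 5, t ≠ 4 → t ≠ 3 → t = 0 ∨ t = 1 ∨ t = 2 := by decide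
  have hc := key _ c4 c3
  have hd := key _ d4 d3
  rcases hc with c0 | c1 | c2
  · rcases hd with d0 | d1 | d2
    · exact canD h c0 d0
    · exact (canC h.symm d1 (Or.inl c0)).symm
    · exact (canC' h.symm d2 (Or.inl c0)).symm
  · exact canC h c1 hd
  · exact canC' h c2 hd

end Cfsg.Agent.H492.Fi24P.Can
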