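import Cfsg.Agent.H492.Fi24P.Num
import Cfsg.Agent.KFacts.FiTF.FixMask

/-!
# `Fi24` on the commuting pairs of transpositions: masks and orbits, kernel checks (helper492)

The base pair is `{0, 1}` (the points of the generators `l`, `a`). `N1`: the points adjacent to 1 (`UW`: to 0);
`M3`: to both, `M1`: to 0 only, `M2`: to 1 only, `M0`: to none.
-/

set_option autoImplicit false
set_option maxRecDepth 100000
set_option Elab.async false

namespace Cfsg.Agent.H492.Fi24P.Chk

open Cfsg Cfsg.Agent.Lib.PermNet Cfsg.Agent.Lib.PermNetOrbit Cfsg.Agent.Lib.PermNetPt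
open Cfsg.Agent.Fischer.Fi24RepDef Cfsg.Agent.Fischer.Fi24Rep Cfsg.Agent.Fischer.Fi24RepOrbData
open Cfsg.Agent.Fischer.Fi24RepOrb (UG)
open Cfsg.Spor.Fi24 (Gen)

/-- The points adjacent to `ρ u 0`. -/
noncomputable def nb (u : List Gen) : ℕ := appWord (nw u.reverse false) UW

def sw : List Gen := [.k, .l, .a, .k]

def ze : List Gen := [.l, .a]

def t7 : List Gen := [.k, .a, .b, .c, .d, .h, .e, .d, .c, .b, .a, .k, .l, .k, .a, .b, .c, .d, .e, .h, .d, .c, .b, .a, .k]

def t3520 : List Gen := [.f, .e, .d, .b, .c, .a, .b, .k, .a, .l, .k, .l, .k, .l, .a, .k, .b, .a, .c, .b, .d, .e, .f]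

def t6 : List Gen := [.b, .c, .d, .h, .e, .d, .c, .b, .k, .a, .l, .k, .l, .k, .l, .a, .k, .b, .c, .d, .e, .h, .d, .c, .b]

def u0 : List Gen := []

def u1 : List Gen := [.k, .a, .l, .k]

def u3 : List Gen := [.d, .e, .c, .d, .b, .c, .a, .b, .k, .a, .l, .k]

def u2 : List Gen := [.b, .c, .a, .b, .k, .a, .l, .k]

def u193 : List Gen := [.a, .b, .k, .a, .l, .k]

def u199 : List Gen := [.c, .d, .h, .e, .d, .c, .a, .b, .k, .a, .l, .k]

def u308002 : List Gen := [.c, .b, .a, .l, .k]

def u279083 : List Gen := [.c, .d, .h, .i, .g, .f, .e, .d, .h, .f, .g, .c, .d, .e, .f, .b, .c, .d, .e, .a, .b, .c, .d, .h, .i, .d, .e, .b, .c, .d, .h, .j, .g, .f, .e, .d, .c, .b, .a, .l, .k]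

def u307872 : List Gen := [.l, .k]

def u307841 : List Gen := [.a, .k]

def u307842 : List Gen := [.b, .c, .d, .h, .e, .d, .c, .b, .a, .k]

def u305410 : List Gen := [.b, .c, .d, .h, .i, .e, .d, .h, .f, .e, .d, .c, .b, .a, .k]

noncomputable def N1 : ℕ := nb u1
noncomputable def M3 : ℕ := Nat.land UW N1
noncomputable def M1 : ℕ := Nat.xor (Nat.xor UW (Nat.land UW N1)) 2
noncomputable def M2 : ℕ := Nat.xor (Nat.xor N1 (Nat.land UW N1)) 1
noncomputable def M0 : ℕ := Nat.xor UG (Nat.lor UW N1)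

theorem sub_UW : Nat.beq (Nat.land UG UW) UW = true := by decide +kernel
theorem sub_N1 : Nat.beq (Nat.land UG N1) N1 = true := by decide +kernel
theorem tb_UW_0 : tb UW 0 = false := by decide +kernel
theorem tb_UW_1 : tb UW 1 = true := by decide +kernel
theorem tb_N1_0 : tb N1 0 = true := by decide +kernel
theorem tb_N1_1 : tb N1 1 = false := by decide +kernel
theorem chk_sw0 : chkPt (nw sw false) 0 1 = true := by decide +kernel
theorem chk_sw1 : chkPt (nw sw false) 1 0 = true := by decide +kernel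
theorem chk_sw3 : chkPt (nw sw false) 3 3 = true := by decide +kernel

theorem chk_u0 : chkPt (nw u0 false) 0 0 = true := by decide +kernel
theorem chk_u1 : chkPt (nw u1 false) 0 1 = true := by decide +kernel
theorem chk_u3 : chkPt (nw u3 false) 0 3 = true := by decide +kernel
theorem chk_u2 : chkPt (nw u2 false) 0 2 = true := by decide +kernel
theorem chk_u193 : chkPt (nw u193 false) 0 193 = true := by decide +kernel
theorem chk_u199 : chkPt (nw u199 false) 0 199 = true := by decide +kernel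
theorem chk_u308002 : chkPt (nw u308002 false) 0 308002 = true := by decide +kernel
theorem chk_u279083 : chkPt (nw u279083 false) 0 279083 = true := by decide +kernel
theorem chk_u307872 : chkPt (nw u307872 false) 0 307872 = true := by decide +kernel
theorem chk_u307841 : chkPt (nw u307841 false) 0 307841 = true := by decide +kernel
theorem chk_u307842 : chkPt (nw u307842 false) 0 307842 = true := by decide +kernel
theorem chk_u305410 : chkPt (nw u305410 false) 0 305410 = true := by decide +kernel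

/-! ### generators of stabilizers -/

def g0 : List (List Gen) := [[.c], [.d], [.e], [.f], [.g], [.j], [.h], [.i], t7]

theorem fix_g0_0 : fixB (nws g0) 0 = true := by decide +kernel
theorem fix_g0_1 : fixB (nws g0) 1 = true := by decide +kernel

def ge : List (List Gen) := [[.c], [.g], [.j], [.h], [.i], t3520, t6]

theorem fix_ge_0 : fixB (nws ge) 0 = true := by decide +kernel
theorem fix_ge_1 : fixB (nws ge) 1 = true := by decide +kernel
theorem fix_ge_3 : fixB (nws ge) 3 = true := by decide +kernel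

def gb : List (List Gen) := [[.d], [.e], [.f], [.g], [.j], [.h], [.i], t7]

theorem fix_gb_0 : fixB (nws gb) 0 = true := by decide +kernel
theorem fix_gb_1 : fixB (nws gb) 1 = true := by decide +kernel
theorem fix_gb_193 : fixB (nws gb) 193 = true := by decide +kernel

def gk : List (List Gen) := [[.c], [.d], [.e], [.f], [.g], [.j], [.h], [.i]]

theorem fix_gk_0 : fixB (nws gk) 0 = true := by decide +kernel
theorem fix_gk_1 : fixB (nws gk) 1 = true := by decide +kernel
theorem fix_gk_307872 : fixB (nws gk) 307872 = true := by decide +kernel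

/-! ### orbits -/

def sF3 : List (List Gen) := [[.f], [.g], [.e], [.d], [.h], [.c], [.e], [.i], [.d], [.h], [.e], [.j], [.f], [.g], [.d], [.c], [.e], t7, [.i], [.h], [.f], [.e], [.g], [.d], [.c], [.h], [.e], [.f], [.e], [.g], [.i], [.d], [.h], [.c], [.e], t7, [.i], [.f], [.g], [.j]]

theorem sF3_sub : ∀ l ∈ sF3, l ∈ g0 := by decide

noncomputable def OF3 : ℕ := sat (nws sF3) 1 (2 ^ 3)

theorem covF3 : Nat.beq (Nat.land M3 OF3) M3 = true := by decide +kernel

def sF1 : List (List Gen) := [[.c], [.d], [.h], [.e], [.i], [.f], [.g], [.d], [.c], [.e], [.h], [.j], [.d], [.h], [.e], [.c], [.f], [.g], [.e], [.i], [.d], [.h], [.c], [.e], [.f], [.e], [.j], [.g], t7, [.i], [.h], [.f], [.g], [.e], [.d], [.c], [.h], [.e], [.f], [.g], [.e], [.j], [.d], t7, [.i], [.e]]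

theorem sF1_sub : ∀ l ∈ sF1, l ∈ g0 := by decide

noncomputable def OF1 : ℕ := sat (nws sF1) 1 (2 ^ 193)

theorem covF1 : Nat.beq (Nat.land M1 OF1) M1 = true := by decide +kernel

def sF0 : List (List Gen) := [t7, [.i], [.h], [.f], [.g], [.e], [.d], [.c], [.h], [.e], [.f], [.e], [.g], [.j], [.g], [.d], [.h], [.e], [.i], [.c], [.h], [.f], [.g], [.e], [.d], [.c], [.h], [.e], t7, [.i], [.h], [.f], [.g], [.e], [.d], [.c], [.h], [.e], [.j], [.f], [.g], [.e], [.d], [.e], [.h], [.c], [.i], t7, [.i], [.h], [.d]]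

theorem sF0_sub : ∀ l ∈ sF0, l ∈ g0 := by decide

noncomputable def OF0 : ℕ := sat (nws sF0) 1 (2 ^ 307872)

theorem covF0 : Nat.beq (Nat.land M0 OF0) M0 = true := by decide +kernel

def sS33 : List (List Gen) := [t3520, [.g], [.h], [.c], [.j], [.i], t6, [.i], [.h], t3520, [.g], [.h], [.c], [.j], [.i], t6, [.i], t3520, [.h], [.c], [.g], [.i], t6, t3520, [.g], [.j]]

theorem sS33_sub : ∀ l ∈ sS33, l ∈ ge := by decide

noncomputable def OS33 : ℕ := sat (nws sS33) 1 (2 ^ 2)

theorem covS33 : Nat.beq (Nat.land (Nat.land (nb u3) M3) OS33) (Nat.land (nb u3) M3) = true := by decide +kernel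

def sS31 : List (List Gen) := [[.c], t6, [.i], [.h], t3520, [.g], [.h], [.c], [.j], [.i], t6, [.i], [.h], t3520, [.h], [.g], [.c], [.i], [.j], t3520, [.h], [.g], [.c], [.j], [.i], t6, [.i], [.h], t3520, [.c], [.g], [.h]]

theorem sS31_sub : ∀ l ∈ sS31, l ∈ ge := by decide

noncomputable def OS31 : ℕ := sat (nws sS31) 1 (2 ^ 193)

theorem covS31 : Nat.beq (Nat.land (Nat.land (nb u3) M1) OS31) (Nat.land (nb u3) M1) = true := by decide +kernel

def sS30 : List (List Gen) := [t6, [.i], [.h], t3520, [.g], [.h], [.c], [.j], [.i], t3520, [.g], [.h], [.c], [.j], [.i], t6, [.i], [.h], t3520, [.h], [.g], [.c], [.j], [.i], t6, [.i], [.h], t3520, [.h], [.c], [.g], [.i], [.j], t6, [.i], [.h], t3520, t6]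

theorem sS30_sub : ∀ l ∈ sS30, l ∈ ge := by decide

noncomputable def OS30 : ℕ := sat (nws sS30) 1 (2 ^ 307872)

theorem covS30 : Nat.beq (Nat.land (Nat.land (nb u3) M0) OS30) (Nat.land (nb u3) M0) = true := by decide +kernel

def sS11 : List (List Gen) := [[.i], [.h], [.f], [.g], [.e], [.d], [.h], [.e], [.j], [.f], [.g], [.e], [.i], [.d], [.h], [.j], [.f], [.e], t7, [.i], [.h], [.f], [.g], [.e], [.d], [.h], [.e], [.f], [.e], [.g], t7, [.i], [.d], [.h], [.f], [.e]]

theorem sS11_sub : ∀ l ∈ sS11, l ∈ gb := by decide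

noncomputable def OS11 : ℕ := sat (nws sS11) 1 (2 ^ 199)

theorem covS11 : Nat.beq (Nat.land (Nat.land (nb u193) M1) OS11) (Nat.land (nb u193) M1) = true := by decide +kernel

def sS10 : List (List Gen) := [t7, [.i], [.h], [.f], [.g], [.e], [.d], [.h], [.e], [.j], [.f], [.g], [.e], [.i], [.d], [.h], [.j], [.f], [.e], t7, [.i], [.h], [.f], [.g], [.e], [.d], [.h], [.e], [.f], [.e], [.g], [.j], [.g], [.i], [.d], [.h], [.e], [.f], [.e], t7, [.f], [.g], [.e], [.i]]

theorem sS10_sub : ∀ l ∈ sS10, l ∈ gb := by decide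

noncomputable def OS10 : ℕ := sat (nws sS10) 1 (2 ^ 307872)

theorem covS10 : Nat.beq (Nat.land (Nat.land (nb u193) M0) OS10) (Nat.land (nb u193) M0) = true := by decide +kernel

def sS12a : List (List Gen) := [[.d], [.h], [.e], [.i], [.f], [.g], [.d], [.e], [.h], [.j], [.f], [.g], [.d], [.e], t7, [.f], [.g], [.e], [.i], [.h], [.j], [.d], [.e], [.f], [.g], [.e], [.h], [.f], t7, [.i], [.h], [.f], [.g]]

theorem sS12a_sub : ∀ l ∈ sS12a, l ∈ gb := by decide

noncomputable def OS12a : ℕ := sat (nws sS12a) 1 (2 ^ 308002)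

def sS12b : List (List Gen) := [[.g], [.h], [.e], [.j], [.g], [.i], [.h], [.f], [.g], [.e], [.d], [.h], [.e], [.f], [.g], [.e], [.j], t7, [.i]]

theorem sS12b_sub : ∀ l ∈ sS12b, l ∈ gb := by decide

noncomputable def OS12b : ℕ := sat (nws sS12b) 1 (2 ^ 279083)

def sS0b : List (List Gen) := [[.i], [.h], [.f], [.g], [.e], [.d], [.c], [.h], [.e], [.f], [.e], [.g], [.j], [.g], [.d], [.h], [.e], [.i], [.c], [.h], [.f], [.g], [.e], [.d], [.c], [.h], [.e], [.f], [.g], [.d], [.h], [.e], [.i], [.h], [.c]]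

theorem sS0b_sub : ∀ l ∈ sS0b, l ∈ gk := by decide

noncomputable def OS0b : ℕ := sat (nws sS0b) 1 (2 ^ 307842)

def sS0c : List (List Gen) := [[.g], [.d], [.h], [.e], [.c], [.f], [.g], [.e], [.j], [.g], [.d], [.h], [.c], [.e], [.i], [.h], [.d], [.h], [.e], [.c], [.f], [.e], [.g], [.d], [.c], [.h], [.e], [.i], [.h], [.j], [.f], [.g], [.d], [.e], [.h], [.c], [.f], [.g]]

theorem sS0c_sub : ∀ l ∈ sS0c, l ∈ gk := by decide

noncomputable def OS0c : ℕ := sat (nws sS0c) 1 (2 ^ 305410)

theorem covS12 : Nat.beq (Nat.land (Nat.land (nb u193) M2) (Nat.lor OS12a OS12b)) (Nat.land (nb u193) M2) = true := by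
  decide +kernel

theorem covS0 : Nat.beq (Nat.land (Nat.land (nb u307872) M0) (Nat.lor (Nat.lor OS0b OS0c) (2 ^ 307841)))
    (Nat.land (nb u307872) M0) = true := by decide +kernel

end Cfsg.Agent.H492.Fi24P.Chk
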