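import Cfsg.Agent.H492.Fi24P.Can
import Cfsg.Agent.H492.Fi24P.Chk2

/-!
# `Fi24` on the commuting pairs of transpositions: labels of the representatives, masks of the labels (helper492)
-/

set_option autoImplicit false
set_option maxRecDepth 100000
set_option exponentiation.threshold 600000

namespace Cfsg.Agent.H492.Fi24P.Lab

open Cfsg Cfsg.Agent.Lib.PermNet Cfsg.Agent.Lib.PermNetOrbit Cfsg.Agent.Lib.PermNetPt
open Cfsg.Agent.Fischer.Fi24RepDef Cfsg.Agent.Fischer.Fi24Rep Cfsg.Agent.Fischer.Fi24RepOrbData
open Cfsg.Agent.Fischer.Fi24RepOrb (UG H orbW orbG)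
open Cfsg.Agent.KFacts.FiTF.Pts Cfsg.Agent.KFacts.FiTF.FixMask
open Cfsg.Agent.H492.Fi24P.Chk Cfsg.Agent.H492.Fi24P.Chk2 Cfsg.Agent.H492.Fi24P.Pair Cfsg.Agent.H492.Fi24P.Can
open Cfsg.Spor (Fi24)
open Cfsg.Spor.Fi24 (Gen)

theorem of3 {p : ℕ} (h : and (tb M3 p) (tb UG p) = true) : ty p = 3 := by
  rw [Bool.and_eq_true, tb_eq, tb_eq] at h
  exact ty_three.2 h.1

theorem of1 {p : ℕ} (h : and (tb M1 p) (tb UG p) = true) : ty p = 1 := by
  rw [Bool.and_eq_true, tb_eq, tb_eq] at h
  exact ty_one.2 h.1

theorem of2 {p : ℕ} (h : and (tb M2 p) (tb UG p) = true) : ty p = 2 := by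
  rw [Bool.and_eq_true, tb_eq, tb_eq] at h
  exact ty_two.2 h.1

theorem of0 {p : ℕ} (h : and (tb M0 p) (tb UG p) = true) : ty p = 0 := by
  rw [Bool.and_eq_true, tb_eq, tb_eq] at h
  exact (ty_zero h.2).2 h.1

theorem t0 : ty 0 = 4 := ty_four.2 (Or.inl rfl)
theorem t1 : ty 1 = 4 := ty_four.2 (Or.inr rfl)
theorem t2 : ty 2 = 3 := of3 ty_2
theorem t3 : ty 3 = 3 := of3 ty_3
theorem t6 : ty 6 = 3 := of3 ty_6
theorem t193 : ty 193 = 1 := of1 ty_193
theorem t199 : ty 199 = 1 := of1 ty_199
theorem t192 : ty 192 = 1 := of1 ty_192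
theorem t482 : ty 482 = 1 := of1 ty_482
theorem t308002 : ty 308002 = 2 := of2 ty_308002
theorem t279083 : ty 279083 = 2 := of2 ty_279083
theorem t307072 : ty 307072 = 2 := of2 ty_307072
theorem t307968 : ty 307968 = 2 := of2 ty_307968
theorem t307970 : ty 307970 = 2 := of2 ty_307970
theorem t276672 : ty 276672 = 2 := of2 ty_276672
theorem t307872 : ty 307872 = 0 := of0 ty_307872
theorem t307841 : ty 307841 = 0 := of0 ty_307841
theorem t307842 : ty 307842 = 0 := of0 ty_307842
theorem t305410 : ty 305410 = 0 := of0 ty_305410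
theorem t289152 : ty 289152 = 0 := of0 ty_289152
theorem t307840 : ty 307840 = 0 := of0 ty_307840
theorem t307873 : ty 307873 = 0 := of0 ty_307873
theorem t307874 : ty 307874 = 0 := of0 ty_307874
theorem t305442 : ty 305442 = 0 := of0 ty_305442

/-! ### The points `ζ x` -/

theorem z307872 : rho (word ze) 307872 = 307841 := rho_of_chkPt ze_307872
theorem z307842 : rho (word ze) 307842 = 307875 := rho_of_chkPt ze_307842
theorem z305410 : rho (word ze) 305410 = 305443 := rho_of_chkPt ze_305410
theorem z307840 : rho (word ze) 307840 = 307873 := rho_of_chkPt ze_307840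
theorem z307841 : rho (word ze) 307841 = 307872 := by rw [← z307872, ze_ze]

/-! ### The relations `E7`, `E10`, `E11` -/

theorem adj308002 (d : ℕ) : Adj 308002 d ↔ (nb u308002).testBit d = true := adj_word (rho_of_chkPt chk_u308002) d
theorem adj279083 (d : ℕ) : Adj 279083 d ↔ (nb u279083).testBit d = true := adj_word (rho_of_chkPt chk_u279083) d
theorem adj307841 (d : ℕ) : Adj 307841 d ↔ (nb u307841).testBit d = true := adj_word (rho_of_chkPt chk_u307841) d
theorem adj307873 (d : ℕ) : Adj 307873 d ↔ (nb u307873).testBit d = true := adj_word (rho_of_chkPt chk_u307873) d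

theorem E7_7 : E7 193 308002 := by
  have h := e7_7
  simp only [Bool.and_eq_true, tb_eq] at h
  exact ⟨4, (adj_zero 4).2 h.1.1, (nb_one 4).2 h.1.2, (adj193 4).2 h.2.1, (adj308002 4).2 h.2.2⟩

theorem E7_8 : ¬ E7 193 279083 := by
  rintro ⟨e, h0, h1, h2, h3⟩
  have h : M3 &&& (nb u193 &&& nb u279083) = 0 := Nat.eq_of_beq_eq_true e7_8
  have h4 := congrArg (fun x => Nat.testBit x e) h
  have h5 : M3.testBit e = true := by
    have e1 : M3.testBit e = (UW.testBit e && N1.testBit e) := Nat.testBit_and _ _ _
    rw [e1, (adj_zero e).1 h0, (nb_one e).1 h1]; rfl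
  simp only [Nat.testBit_and, Nat.zero_testBit] at h4
  rw [h5, (adj193 e).1 h2, (adj279083 e).1 h3] at h4
  exact absurd h4 (by decide)

theorem E10_10 : E10 307872 307841 := z307872
theorem E10_11 : ¬ E10 307872 307842 := by unfold E10; rw [z307872]; decide
theorem E10_12 : ¬ E10 307872 305410 := by unfold E10; rw [z307872]; decide
theorem E11_11 : E11 307872 307842 := by
  unfold E11; rw [z307872, adj307841, ← tb_eq]; exact adj_11
theorem E11_12 : ¬ E11 307872 305410 := by
  unfold E11; rw [z307872, adj307841, ← tb_eq, adj_12]; decide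
theorem E10_10' : E10 307840 307873 := z307840
theorem E10_11' : ¬ E10 307840 307874 := by unfold E10; rw [z307840]; decide
theorem E10_12' : ¬ E10 307840 305442 := by unfold E10; rw [z307840]; decide
theorem E11_11' : E11 307840 307874 := by
  unfold E11; rw [z307840, adj307873, ← tb_eq]; exact adj_11'
theorem E11_12' : ¬ E11 307840 305442 := by
  unfold E11; rw [z307840, adj307873, ← tb_eq, adj_12']; decide

/-! ### Labels -/

theorem lab_of {c d : ℕ} {t t' : Fin 5} {j : Fin 13} (h : ty c = t) (h' : ty d = t')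
    (hj : ∀ a b e, code t t' a b e = j) : labN c d = j := by
  unfold labN
  rw [h, h']
  exact hj _ _ _

theorem lab7 {c d : ℕ} (h : ty c = 1) (h' : ty d = 2) (he : E7 c d) : labN c d = 7 := by
  classical
  unfold labN
  rw [h, h', decide_eq_true he]
  generalize decide (E10 c d) = b
  generalize decide (E11 c d) = b'
  revert b b'; decide

theorem lab8 {c d : ℕ} (h : ty c = 1) (h' : ty d = 2) (he : ¬ E7 c d) : labN c d = 8 := by
  classical
  unfold labN
  rw [h, h', decide_eq_false he]
  generalize decide (E10 c d) = b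
  generalize decide (E11 c d) = b'
  revert b b'; decide

theorem lab10 {c d : ℕ} (h : ty c = 0) (h' : ty d = 0) (he : E10 c d) : labN c d = 10 := by
  classical
  unfold labN
  rw [h, h', decide_eq_true he]
  generalize decide (E7 c d) = b
  generalize decide (E11 c d) = b'
  revert b b'; decide

theorem lab11 {c d : ℕ} (h : ty c = 0) (h' : ty d = 0) (he : ¬ E10 c d) (he' : E11 c d) : labN c d = 11 := by
  classical
  unfold labN
  rw [h, h', decide_eq_false he, decide_eq_true he']
  generalize decide (E7 c d) = b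
  revert b; decide

theorem lab12 {c d : ℕ} (h : ty c = 0) (h' : ty d = 0) (he : ¬ E10 c d) (he' : ¬ E11 c d) : labN c d = 12 := by
  classical
  unfold labN
  rw [h, h', decide_eq_false he, decide_eq_false he']
  generalize decide (E7 c d) = b
  revert b; decide

/-! ### Masks of the labels -/

/-- `A` lists the masks of the labels `labN x f` -/
def LM (x : ℕ) (A : List ℕ) : Prop :=
  ∀ f, Adj x f → ∀ j : Fin 13, (A.getD j 0).testBit f = decide (labN x f = j)

theorem LM.iff {x : ℕ} {A : List ℕ} (h : LM x A) {f : ℕ} (hf : Adj x f) (j : Fin 13) :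
    labN x f = j ↔ (A.getD j 0).testBit f = true := by rw [h f hf j]; simp

theorem tb0 (f : ℕ) : (0 : ℕ).testBit f = false := Nat.zero_testBit f

theorem tb3 (p : ℕ) : (3 : ℕ).testBit p = decide (ty p = 4) := by
  rw [← b4]
  have : (3 : ℕ) = 1 ||| 2 := rfl
  rw [this, Nat.testBit_or, tb1, tb2]
  simp

theorem bor (p : ℕ) : (Nat.lor M1 M2).testBit p = (decide (ty p = 1) || decide (ty p = 2)) := by
  show (M1 ||| M2).testBit p = _
  rw [Nat.testBit_or, bM1, bM2]

theorem LM.mk {x : ℕ} {A : List ℕ} (h : ∀ f, Adj x f → ∃ B : List Bool, A.map (fun m => m.testBit f) = B ∧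
    ∀ j : Fin 13, B.getD j false = decide (labN x f = j)) : LM x A := by
  intro f hf j
  obtain ⟨B, hB, hj⟩ := h f hf
  rw [← hj j, ← hB, List.getD_eq_getElem?_getD, List.getD_eq_getElem?_getD, List.getElem?_map]
  cases A[(j : ℕ)]? <;> simp

theorem LM_zero : LM 0 A0 := by
  refine LM.mk fun f hf => ⟨[decide (ty f = 4), decide (ty f = 3), decide (ty f = 1)], ?_, ?_⟩
  · have h2 : (2 : ℕ).testBit f = decide (ty f = 4) := by
      rw [tb2, ← b4]
      have : f ≠ 0 := fun h => hf.ne h.symm
      simp [this]
    unfold A0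
    rw [List.map_cons, List.map_cons, List.map_cons, List.map_nil, h2, bM3, bM1]
  · have e : ∀ t : Fin 5, (t = 4 ∨ t = 3 ∨ t = 1) → ∀ a b c : Bool, ∀ j : Fin 13,
        (([decide (t = 4), decide (t = 3), decide (t = 1)] : List Bool).getD j false) = decide (code 4 t a b c = j) := by
      decide +kernel
    have ht : ty f = 4 ∨ ty f = 3 ∨ ty f = 1 := by
      have h0 := (adj_zero f).1 hf
      have := ty_eq f
      rw [h0] at this
      by_cases b : f = 0 ∨ f = 1
      · exact Or.inl (ty_four.2 b)
      · rw [if_neg b] at this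
        cases hn : N1.testBit f <;> rw [hn] at this <;> simp at this
        · exact Or.inr (Or.inr this)
        · exact Or.inr (Or.inl this)
    intro j
    unfold labN
    rw [t0]
    exact e _ ht _ _ _ j

theorem LM_one : LM 1 A1 := by
  refine LM.mk fun f hf => ⟨[decide (ty f = 4), decide (ty f = 3), decide (ty f = 2)], ?_, ?_⟩
  · have h2 : (1 : ℕ).testBit f = decide (ty f = 4) := by
      rw [tb1, ← b4]
      have : f ≠ 1 := fun h => hf.ne h.symm
      simp [this]
    unfold A1
    rw [List.map_cons, List.map_cons, List.map_cons, List.map_nil, h2, bM3, bM2]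
  · have e : ∀ t : Fin 5, (t = 4 ∨ t = 3 ∨ t = 2) → ∀ a b c : Bool, ∀ j : Fin 13,
        (([decide (t = 4), decide (t = 3), decide (t = 2)] : List Bool).getD j false) = decide (code 4 t a b c = j) := by
      decide +kernel
    have ht : ty f = 4 ∨ ty f = 3 ∨ ty f = 2 := by
      have h0 := (nb_one f).1 hf
      have := ty_eq f
      rw [h0] at this
      by_cases b : f = 0 ∨ f = 1
      · exact Or.inl (ty_four.2 b)
      · rw [if_neg b] at this
        cases hn : UW.testBit f <;> rw [hn] at this <;> simp at this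
        · exact Or.inr (Or.inr this)
        · exact Or.inr (Or.inl this)
    intro j
    unfold labN
    rw [t1]
    exact e _ ht _ _ _ j

theorem LM_three {x : ℕ} (hx : ty x = 3) : LM x A3 := by
  refine LM.mk fun f hf => ⟨[false, decide (ty f = 4), false, decide (ty f = 3),
    (decide (ty f = 1) || decide (ty f = 2)), decide (ty f = 0)], ?_, ?_⟩
  · unfold A3
    rw [List.map_cons, List.map_cons, List.map_cons, List.map_cons, List.map_cons, List.map_cons, List.map_nil, tb0,
      tb3, bM3, bor, bM0 hf.symm.bitUG]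
  · have e : ∀ t : Fin 5, ∀ a b c : Bool, ∀ j : Fin 13,
        (([false, decide (t = 4), false, decide (t = 3), (decide (t = 1) || decide (t = 2)), decide (t = 0)] :
          List Bool).getD j false) = decide (code 3 t a b c = j) := by
      decide +kernel
    intro j
    unfold labN
    rw [hx]
    exact e _ _ _ _ j

theorem adj0_of_ty {x : ℕ} (h : ty x = 2 ∨ ty x = 0) : ¬ Adj 0 x := by
  intro hx
  have h0 := (adj_zero x).1 hx
  have e := ty_eq x
  rw [h0] at e
  rcases h with h | h <;> rw [h] at e <;> split_ifs at e <;> simp_all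

theorem adj1_of_ty {x : ℕ} (h : ty x = 1 ∨ ty x = 0) : ¬ Adj 1 x := by
  intro hx
  have h0 := (nb_one x).1 hx
  have e := ty_eq x
  rw [h0] at e
  rcases h with h | h <;> rw [h] at e <;> split_ifs at e <;> simp_all

open Classical in
theorem LM_t1 {x O7 O8 : ℕ} (hx : ty x = 1)
    (h7 : ∀ f, Adj x f → O7.testBit f = (decide (ty f = 2) && decide (E7 x f)))
    (h8 : ∀ f, Adj x f → O8.testBit f = (decide (ty f = 2) && !decide (E7 x f))) :
    LM x [0, 0, 1, 0, M3, 0, M1, O7, O8, M0] := by
  refine LM.mk fun f hf => ⟨[false, false, decide (ty f = 4), false, decide (ty f = 3), false, decide (ty f = 1),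
    (decide (ty f = 2) && decide (E7 x f)), (decide (ty f = 2) && !decide (E7 x f)), decide (ty f = 0)], ?_, ?_⟩
  · have h2 : (1 : ℕ).testBit f = decide (ty f = 4) := by
      rw [tb1, ← b4]
      have : f ≠ 1 := by
        rintro rfl
        exact adj1_of_ty (Or.inl hx) hf.symm
      simp [this]
    simp only [List.map_cons, List.map_nil, tb0, h2, bM3, bM1, h7 f hf, h8 f hf, bM0 hf.symm.bitUG]
  · have e : ∀ t : Fin 5, ∀ a b c : Bool, ∀ j : Fin 13,
        (([false, false, decide (t = 4), false, decide (t = 3), false, decide (t = 1),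
          (decide (t = 2) && a), (decide (t = 2) && !a), decide (t = 0)] :
          List Bool).getD j false) = decide (code 1 t a b c = j) := by
      decide +kernel
    intro j
    unfold labN
    rw [hx]
    exact e _ _ _ _ j

open Classical in
theorem LM_t2 {x O7 O8 : ℕ} (hx : ty x = 2)
    (h7 : ∀ f, Adj x f → O7.testBit f = (decide (ty f = 1) && decide (E7 x f)))
    (h8 : ∀ f, Adj x f → O8.testBit f = (decide (ty f = 1) && !decide (E7 x f))) :
    LM x [0, 0, 2, 0, M3, 0, M2, O7, O8, M0] := by
  refine LM.mk fun f hf => ⟨[false, false, decide (ty f = 4), false, decide (ty f = 3), false, decide (ty f = 2),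
    (decide (ty f = 1) && decide (E7 x f)), (decide (ty f = 1) && !decide (E7 x f)), decide (ty f = 0)], ?_, ?_⟩
  · have h2 : (2 : ℕ).testBit f = decide (ty f = 4) := by
      rw [tb2, ← b4]
      have : f ≠ 0 := by
        rintro rfl
        exact adj0_of_ty (Or.inl hx) hf.symm
      simp [this]
    simp only [List.map_cons, List.map_nil, tb0, h2, bM3, bM2, h7 f hf, h8 f hf, bM0 hf.symm.bitUG]
  · have e : ∀ t : Fin 5, ∀ a b c : Bool, ∀ j : Fin 13,
        (([false, false, decide (t = 4), false, decide (t = 3), false, decide (t = 2),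
          (decide (t = 1) && a), (decide (t = 1) && !a), decide (t = 0)] :
          List Bool).getD j false) = decide (code 2 t a b c = j) := by
      decide +kernel
    intro j
    unfold labN
    rw [hx]
    exact e _ _ _ _ j

theorem LM_t0 {x z Z : ℕ} (hx : ty x = 0) (hz : rho (word ze) x = z)
    (hZ : ∀ f, Adj z f ↔ Z.testBit f = true) : LM x (AZ z Z) := by
  classical
  refine LM.mk fun f hf => ⟨[false, false, false, false, false, decide (ty f = 3), false, false, false,
    (decide (ty f = 1) || decide (ty f = 2)), decide (E10 x f), (decide (ty f = 0) && decide (E11 x f)),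
    (decide (ty f = 0) ^^ (decide (E10 x f) || (decide (ty f = 0) && decide (E11 x f))))], ?_, ?_⟩
  · have h2 : (Nat.pow 2 z).testBit f = decide (E10 x f) := by
      show (2 ^ z).testBit f = _
      rw [Nat.testBit_two_pow]
      exact decide_eq_decide.2 (by unfold E10; rw [hz])
    have h3 : Z.testBit f = decide (E11 x f) := by
      unfold E11
      rw [hz]
      have := hZ f
      cases hb : Z.testBit f <;> rw [hb] at this <;> simp [this]
    have h4 : (Nat.land M0 Z).testBit f = (decide (ty f = 0) && decide (E11 x f)) := by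
      show (M0 &&& Z).testBit f = _
      rw [Nat.testBit_and, bM0 hf.symm.bitUG, h3]
    have h5 : (Nat.xor M0 (Nat.lor (Nat.pow 2 z) (Nat.land M0 Z))).testBit f =
        (decide (ty f = 0) ^^ (decide (E10 x f) || (decide (ty f = 0) && decide (E11 x f)))) := by
      show (M0 ^^^ (Nat.pow 2 z ||| (Nat.land M0 Z))).testBit f = _
      rw [Nat.testBit_xor, Nat.testBit_or, bM0 hf.symm.bitUG, h2, h4]
    unfold AZ
    simp only [List.map_cons, List.map_nil, tb0, bM3, bor, h2, h4, h5]
  · have e : ∀ t : Fin 5, ∀ a b c : Bool, t ≠ 4 → (b = true → t = 0 ∧ c = false) → ∀ j : Fin 13,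
        (([false, false, false, false, false, decide (t = 3), false, false, false,
          (decide (t = 1) || decide (t = 2)), b, (decide (t = 0) && c),
          (decide (t = 0) ^^ (b || (decide (t = 0) && c)))] :
          List Bool).getD j false) = decide (code 0 t a b c = j) := by
      decide +kernel
    have h4 : ty f ≠ 4 := by
      intro h
      rcases ty_four.1 h with rfl | rfl
      · exact adj0_of_ty (Or.inr hx) hf.symm
      · exact adj1_of_ty (Or.inr hx) hf.symm
    have h10 : decide (E10 x f) = true → ty f = 0 ∧ decide (E11 x f) = false := by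
      intro h
      have h' : E10 x f := of_decide_eq_true h
      unfold E10 at h'
      refine ⟨?_, decide_eq_false ?_⟩
      · rw [← h']
        have hs : rho (word ze) 0 = 0 ∧ rho (word ze) 1 = 1 := by
          have hl := isPt_gen .l
          have ha := isPt_gen .a
          have el : pn .l = 0 := rfl
          have ea : pn .a = 1 := rfl
          rw [el] at hl
          rw [ea] at ha
          rw [← hl.comm_iff, ← ha.comm_iff, word_ze]
          constructor
          · rw [mul_assoc, ← gen_la, ← mul_assoc]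
          · rw [← mul_assoc (gen .a), ← gen_la]
        rw [ty_fix hs.1 hs.2, hx]
      · intro h11
        unfold E11 at h11
        rw [h'] at h11
        exact h11.ne rfl
    intro j
    unfold labN
    rw [hx]
    exact e _ _ _ _ h4 h10 j

/-! ### The masks of the labels 7, 8 -/

open Classical in
theorem O7_193 (f : ℕ) (hf : Adj 193 f) : OS12a.testBit f = (decide (ty f = 2) && decide (E7 193 f)) ∧
    OS12b.testBit f = (decide (ty f = 2) && !decide (E7 193 f)) := by
  have ka : OS12a.testBit f = true → ty f = 2 ∧ E7 193 f := by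
    intro h
    obtain ⟨g, g0, g1, g2, g3⟩ := S12a h
    have hs : St g := Or.inl ⟨g0, g1⟩
    refine ⟨by rw [← ty_fix g0 g1 f, g3, t308002], ?_⟩
    rw [← E7_smul hs, g2, g3]
    exact E7_7
  have kb : OS12b.testBit f = true → ty f = 2 ∧ ¬ E7 193 f := by
    intro h
    obtain ⟨g, g0, g1, g2, g3⟩ := S12b h
    have hs : St g := Or.inl ⟨g0, g1⟩
    refine ⟨by rw [← ty_fix g0 g1 f, g3, t279083], ?_⟩
    rw [← E7_smul hs, g2, g3]
    exact E7_8
  by_cases h2 : ty f = 2
  · by_cases he : E7 193 f
    · have hb : OS12b.testBit f = false := by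
        cases h : OS12b.testBit f
        · rfl
        · exact absurd he (kb h).2
      have ha : OS12a.testBit f = true := by
        rcases S12 hf h2 with h | h
        · exact h
        · rw [hb] at h; exact absurd h (by decide)
      simp [ha, hb, h2, he]
    · have ha : OS12a.testBit f = false := by
        cases h : OS12a.testBit f
        · rfl
        · exact absurd (ka h).2 he
      have hb : OS12b.testBit f = true := by
        rcases S12 hf h2 with h | h
        · rw [ha] at h; exact absurd h (by decide)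
        · exact h
      simp [ha, hb, h2, he]
  · have ha : OS12a.testBit f = false := by
      cases h : OS12a.testBit f
      · rfl
      · exact absurd (ka h).1 h2
    have hb : OS12b.testBit f = false := by
      cases h : OS12b.testBit f
      · rfl
      · exact absurd (kb h).1 h2
    simp [ha, hb, h2]

theorem trm_bit {h : List Gen} {O f : ℕ} : (trm h O).testBit (rho (word h) f) = O.testBit f := by
  unfold trm
  rw [testBit_appWord (wok _ false), ← rho_word, word_reverse, map_inv, inv_app]

open Classical in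
theorem O7_fix {h : List Gen} {x : ℕ} (h0 : rho (word h) 0 = 0) (h1 : rho (word h) 1 = 1) (hx : rho (word h) 193 = x)
    (f : ℕ) (hf : Adj x f) : (trm h OS12a).testBit f = (decide (ty f = 2) && decide (E7 x f)) ∧
    (trm h OS12b).testBit f = (decide (ty f = 2) && !decide (E7 x f)) := by
  obtain ⟨f', rfl⟩ := (rho (word h)).surjective f
  subst hx
  have hf' : Adj 193 f' := (adj_smul _ _ _).1 hf
  have e7 := E7_smul (Or.inl ⟨h0, h1⟩ : St (word h)) 193 f'
  simp only [trm_bit, ty_fix h0 h1, e7]
  exact O7_193 f' hf'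

open Classical in
theorem O7_swap {h : List Gen} {x : ℕ} (h0 : rho (word h) 0 = 1) (h1 : rho (word h) 1 = 0) (hx : rho (word h) 193 = x)
    (f : ℕ) (hf : Adj x f) : (trm h OS12a).testBit f = (decide (ty f = 1) && decide (E7 x f)) ∧
    (trm h OS12b).testBit f = (decide (ty f = 1) && !decide (E7 x f)) := by
  obtain ⟨f', rfl⟩ := (rho (word h)).surjective f
  subst hx
  have hf' : Adj 193 f' := (adj_smul _ _ _).1 hf
  have e7 := E7_smul (Or.inr ⟨h0, h1⟩ : St (word h)) 193 f'
  have et : decide (tsw (ty f') = 1) = decide (ty f' = 2) := by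
    generalize ty f' = t; revert t; decide
  simp only [trm_bit, ty_swap h0 h1, e7, et]
  exact O7_193 f' hf'

theorem LM_193 : LM 193 A193 :=
  LM_t1 t193 (fun f hf => (O7_193 f hf).1) (fun f hf => (O7_193 f hf).2)

theorem ch6 : rho (word h6) 0 = 0 ∧ rho (word h6) 1 = 1 ∧ rho (word h6) 193 = 199 := by
  have h := chk_h6
  simp only [Bool.and_eq_true] at h
  exact ⟨rho_of_chkPt h.1.1, rho_of_chkPt h.1.2, rho_of_chkPt h.2⟩

theorem ch7 : rho (word h7) 0 = 1 ∧ rho (word h7) 1 = 0 ∧ rho (word h7) 193 = 308002 := by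
  have h := chk_h7
  simp only [Bool.and_eq_true] at h
  exact ⟨rho_of_chkPt h.1.1, rho_of_chkPt h.1.2, rho_of_chkPt h.2⟩

theorem ch8 : rho (word h8) 0 = 1 ∧ rho (word h8) 1 = 0 ∧ rho (word h8) 193 = 279083 := by
  have h := chk_h8
  simp only [Bool.and_eq_true] at h
  exact ⟨rho_of_chkPt h.1.1, rho_of_chkPt h.1.2, rho_of_chkPt h.2⟩

theorem LM_199 : LM 199 A199 :=
  LM_t1 t199 (fun f hf => (O7_fix ch6.1 ch6.2.1 ch6.2.2 f hf).1) (fun f hf => (O7_fix ch6.1 ch6.2.1 ch6.2.2 f hf).2)

theorem LM_308002 : LM 308002 A308002 :=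
  LM_t2 t308002 (fun f hf => (O7_swap ch7.1 ch7.2.1 ch7.2.2 f hf).1)
    (fun f hf => (O7_swap ch7.1 ch7.2.1 ch7.2.2 f hf).2)

theorem LM_279083 : LM 279083 A279083 :=
  LM_t2 t279083 (fun f hf => (O7_swap ch8.1 ch8.2.1 ch8.2.2 f hf).1)
    (fun f hf => (O7_swap ch8.1 ch8.2.1 ch8.2.2 f hf).2)

theorem adj_ze {x : ℕ} {u : List Gen} (hu : rho (word u) 0 = x) {z : ℕ} (hz : rho (word ze) x = z) (f : ℕ) :
    Adj z f ↔ (nb (ze ++ u)).testBit f = true := by
  refine adj_word ?_ f
  rw [Cfsg.Agent.Fischer.Fi24Spider.word_append, map_mul, Equiv.Perm.mul_apply, hu, hz]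

theorem LM_307872 : LM 307872 (AZ 307841 (nb (ze ++ u307872))) :=
  LM_t0 t307872 z307872 (adj_ze (rho_of_chkPt chk_u307872) z307872)

theorem LM_307841 : LM 307841 (AZ 307872 (nb (ze ++ u307841))) :=
  LM_t0 t307841 z307841 (adj_ze (rho_of_chkPt chk_u307841) z307841)

theorem LM_307842 : LM 307842 (AZ 307875 (nb (ze ++ u307842))) :=
  LM_t0 t307842 z307842 (adj_ze (rho_of_chkPt chk_u307842) z307842)

theorem LM_305410 : LM 305410 (AZ 305443 (nb (ze ++ u305410))) :=
  LM_t0 t305410 z305410 (adj_ze (rho_of_chkPt chk_u305410) z305410)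

end Cfsg.Agent.H492.Fi24P.Lab
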