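import Cfsg.Agent.H492.Fi24P.Chk

/-!
# `Fi24` on the commuting pairs of transpositions: labels (helper492)

`Adj p q`: the points `p`, `q` form an image of the pair `(0, 1)`. `St g`: `g` fixes the pair `{0, 1}`.
`labN c d`: the label of the pair `{c, d}` relative to `{0, 1}`.
-/

set_option autoImplicit false
set_option maxRecDepth 100000

namespace Cfsg.Agent.H492.Fi24P.Pair

open Cfsg Cfsg.Agent.Lib.PermNet Cfsg.Agent.Lib.PermNetOrbit Cfsg.Agent.Lib.PermNetPt
open Cfsg.Agent.Fischer.Fi24RepDef Cfsg.Agent.Fischer.Fi24Rep Cfsg.Agent.Fischer.Fi24RepOrbData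
open Cfsg.Agent.Fischer.Fi24RepOrb (UG H orbW orbG)
open Cfsg.Agent.KFacts.FiTF.Pts Cfsg.Agent.KFacts.FiTF.FixMask
open Cfsg.Agent.H492.Fi24P.Chk
open Cfsg.Spor (Fi24)
open Cfsg.Spor.Fi24 (Gen)

theorem inv_app (f : Equiv.Perm ℕ) (p : ℕ) : f⁻¹ (f p) = p := by simp

theorem app_inv (f : Equiv.Perm ℕ) (p : ℕ) : f (f⁻¹ p) = p := by simp

/-- an image of the pair `(0, 1)` -/
def Adj (p q : ℕ) : Prop := ∃ g : Fi24, rho g 0 = p ∧ rho g 1 = q

theorem Adj.smul {p q : ℕ} (h : Adj p q) (g : Fi24) : Adj (rho g p) (rho g q) := by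
  obtain ⟨k, rfl, rfl⟩ := h
  exact ⟨g * k, by rw [map_mul, Equiv.Perm.mul_apply], by rw [map_mul, Equiv.Perm.mul_apply]⟩

theorem adj_smul (g : Fi24) (p q : ℕ) : Adj (rho g p) (rho g q) ↔ Adj p q := by
  refine ⟨fun h => ?_, fun h => h.smul g⟩
  have h1 := h.smul g⁻¹
  rwa [map_inv, inv_app, inv_app] at h1

theorem sw0 : rho (word sw) 0 = 1 := rho_of_chkPt chk_sw0
theorem sw1 : rho (word sw) 1 = 0 := rho_of_chkPt chk_sw1
theorem sw3 : rho (word sw) 3 = 3 := rho_of_chkPt chk_sw3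

theorem Adj.symm {p q : ℕ} (h : Adj p q) : Adj q p := by
  obtain ⟨k, rfl, rfl⟩ := h
  exact ⟨k * word sw, by rw [map_mul, Equiv.Perm.mul_apply, sw0], by rw [map_mul, Equiv.Perm.mul_apply, sw1]⟩

theorem Adj.ne {p q : ℕ} (h : Adj p q) : p ≠ q := by
  obtain ⟨k, rfl, rfl⟩ := h
  intro h1
  have := (rho k).injective h1
  omega

theorem Adj.bitUG {p q : ℕ} (h : Adj p q) : UG.testBit p = true := by
  obtain ⟨k, rfl, -⟩ := h
  have h1 : rho k 0 ∈ {p : ℕ | ∃ x, rho x 0 = p} := ⟨k, rfl⟩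
  rw [orbG] at h1
  exact h1

theorem adj_zero (q : ℕ) : Adj 0 q ↔ UW.testBit q = true := by
  have h1 : ∀ p, (∃ x ∈ H, rho x 136 = p) ↔ UW.testBit p = true := fun p => by
    have h := orbW
    exact (Set.ext_iff.1 h) p
  obtain ⟨y, hy, hy1⟩ := (h1 1).2 (by rw [← tb_eq]; exact tb_UW_1)
  constructor
  · rintro ⟨g, hg0, rfl⟩
    rw [← h1]
    refine ⟨g * y, H.mul_mem ((hst g).1 hg0) hy, ?_⟩
    rw [map_mul, Equiv.Perm.mul_apply, hy1]
  · intro hq
    obtain ⟨x, hx, rfl⟩ := (h1 q).2 hq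
    have h2 : x * y⁻¹ ∈ H := H.mul_mem hx (H.inv_mem hy)
    refine ⟨x * y⁻¹, (hst _).2 h2, ?_⟩
    rw [map_mul, map_inv, Equiv.Perm.mul_apply, ← hy1, inv_app]

theorem adj_word {u : List Gen} {p : ℕ} (hu : rho (word u) 0 = p) (q : ℕ) : Adj p q ↔ (nb u).testBit q = true := by
  unfold nb
  rw [testBit_appWord (wok _ false), ← rho_word, word_reverse, ← adj_zero, ← adj_smul (word u)⁻¹ p q, ← hu,
    map_inv, inv_app]

/-- `g` fixes the pair `{0, 1}` -/
def St (g : Fi24) : Prop := (rho g 0 = 0 ∧ rho g 1 = 1) ∨ (rho g 0 = 1 ∧ rho g 1 = 0)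

theorem St.one : St 1 := Or.inl (by simp)

theorem St.sw : St (word sw) := Or.inr ⟨sw0, sw1⟩

theorem St.mul {g h : Fi24} (hg : St g) (hh : St h) : St (g * h) := by
  unfold St at *
  rw [map_mul, Equiv.Perm.mul_apply, Equiv.Perm.mul_apply]
  rcases hg with ⟨a, b⟩ | ⟨a, b⟩ <;> rcases hh with ⟨c, d⟩ | ⟨c, d⟩ <;> rw [c, d] <;> simp [a, b]

theorem St.of_fix {g : Fi24} (h0 : rho g 0 = 0) (h1 : rho g 1 = 1) : St g := Or.inl ⟨h0, h1⟩

/-! ### The involution `ζ = l a` -/

theorem gen_la : gen .l * gen .a = gen .a * gen .l :=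
  Cfsg.Agent.Fischer.Fi24Final.gen_comm (x := .l) (y := .a) (by decide)

theorem word_ze : word ze = gen .l * gen .a := by
  unfold word ze; simp

theorem ze_comm {g : Fi24} (hg : St g) : g * word ze = word ze * g := by
  have hl := isPt_gen .l
  have ha := isPt_gen .a
  have el : pn .l = 0 := rfl
  have ea : pn .a = 1 := rfl
  rw [el] at hl
  rw [ea] at ha
  have key : g * word ze * g⁻¹ = word ze := by
    have h1 : g * word ze * g⁻¹ = (g * gen .l * g⁻¹) * (g * gen .a * g⁻¹) := by rw [word_ze]; group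
    rw [h1]
    rcases hg with ⟨a, b⟩ | ⟨a, b⟩
    · rw [hl.conj_eq hl a, ha.conj_eq ha b, word_ze]
    · rw [hl.conj_eq ha a, ha.conj_eq hl b, word_ze, gen_la]
  rw [← mul_inv_eq_iff_eq_mul]
  exact key

theorem ze_smul {g : Fi24} (hg : St g) (p : ℕ) : rho (word ze) (rho g p) = rho g (rho (word ze) p) := by
  rw [← Equiv.Perm.mul_apply, ← Equiv.Perm.mul_apply, ← map_mul, ← map_mul, ze_comm hg]

theorem ze_ze (p : ℕ) : rho (word ze) (rho (word ze) p) = p := by
  rw [← Equiv.Perm.mul_apply, ← map_mul]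
  have h1 : word ze * word ze = 1 := by
    rw [word_ze]
    calc gen .l * gen .a * (gen .l * gen .a) = gen .l * gen .a * (gen .a * gen .l) := by rw [gen_la]
      _ = gen .l * (gen .a * gen .a) * gen .l := by group
      _ = 1 := by rw [Cfsg.Agent.Fischer.Fi24Final.gen_sq, mul_one, Cfsg.Agent.Fischer.Fi24Final.gen_sq]
  rw [h1, map_one]
  rfl

/-! ### Types and labels -/

open Classical in
/-- the type of a point -/
noncomputable def ty (p : ℕ) : Fin 5 :=
  if p = 0 ∨ p = 1 then 4 else if Adj 0 p ∧ Adj 1 p then 3 else if Adj 0 p then 1 else if Adj 1 p then 2 else 0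

/-- exchange of the types 1 and 2 -/
def tsw : Fin 5 → Fin 5 := ![0, 2, 1, 3, 4]

theorem ty_fix {g : Fi24} (h0 : rho g 0 = 0) (h1 : rho g 1 = 1) (p : ℕ) : ty (rho g p) = ty p := by
  have e0 : rho g p = 0 ↔ p = 0 := by
    constructor
    · intro h; exact (rho g).injective (by rw [h, h0])
    · rintro rfl; exact h0
  have e1 : rho g p = 1 ↔ p = 1 := by
    constructor
    · intro h; exact (rho g).injective (by rw [h, h1])
    · rintro rfl; exact h1
  have a0 : Adj 0 (rho g p) ↔ Adj 0 p := by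
    have := adj_smul g 0 p
    rwa [h0] at this
  have a1 : Adj 1 (rho g p) ↔ Adj 1 p := by
    have := adj_smul g 1 p
    rwa [h1] at this
  unfold ty
  by_cases b : p = 0 ∨ p = 1
  · rw [if_pos b, if_pos ((or_congr e0 e1).2 b)]
  · rw [if_neg b, if_neg (fun h => b ((or_congr e0 e1).1 h))]
    by_cases c0 : Adj 0 p <;> by_cases c1 : Adj 1 p <;> simp [c0, c1, a0, a1]

theorem ty_swap {g : Fi24} (h0 : rho g 0 = 1) (h1 : rho g 1 = 0) (p : ℕ) : ty (rho g p) = tsw (ty p) := by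
  classical
  have e0 : rho g p = 0 ↔ p = 1 := by
    constructor
    · intro h; exact (rho g).injective (by rw [h, h1])
    · rintro rfl; exact h1
  have e1 : rho g p = 1 ↔ p = 0 := by
    constructor
    · intro h; exact (rho g).injective (by rw [h, h0])
    · rintro rfl; exact h0
  have a0 : Adj 0 (rho g p) ↔ Adj 1 p := by
    have := adj_smul g 1 p
    rwa [h1] at this
  have a1 : Adj 1 (rho g p) ↔ Adj 0 p := by
    have := adj_smul g 0 p
    rwa [h0] at this
  unfold ty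
  simp only [e0, e1, a0, a1]
  by_cases b0 : p = 0 <;> by_cases b1 : p = 1 <;> by_cases c0 : Adj 0 p <;> by_cases c1 : Adj 1 p <;>
    simp [b0, b1, c0, c1, tsw]

/-- a common neighbour of the four points -/
def E7 (c d : ℕ) : Prop := ∃ e, Adj 0 e ∧ Adj 1 e ∧ Adj c e ∧ Adj d e

def E10 (c d : ℕ) : Prop := rho (word ze) c = d

def E11 (c d : ℕ) : Prop := Adj (rho (word ze) c) d

theorem E7_symm (c d : ℕ) : E7 c d ↔ E7 d c := by
  constructor
  · rintro ⟨e, h1, h2, h3, h4⟩; exact ⟨e, h1, h2, h4, h3⟩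
  · rintro ⟨e, h1, h2, h3, h4⟩; exact ⟨e, h1, h2, h4, h3⟩

theorem E10_symm (c d : ℕ) : E10 c d ↔ E10 d c := by
  unfold E10
  constructor
  · rintro rfl; rw [ze_ze]
  · rintro rfl; rw [ze_ze]

theorem E11_symm (c d : ℕ) : E11 c d ↔ E11 d c := by
  unfold E11
  rw [← adj_smul (word ze) (rho (word ze) c) d, ze_ze]
  exact ⟨Adj.symm, Adj.symm⟩

theorem E7_smul {g : Fi24} (hg : St g) (c d : ℕ) : E7 (rho g c) (rho g d) ↔ E7 c d := by
  have key : ∀ {g : Fi24} (_ : St g) (c d : ℕ), E7 c d → E7 (rho g c) (rho g d) := by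
    rintro g hg c d ⟨e, h1, h2, h3, h4⟩
    have h1' := h1.smul g
    have h2' := h2.smul g
    rcases hg with ⟨a, b⟩ | ⟨a, b⟩
    · rw [a] at h1'; rw [b] at h2'
      exact ⟨rho g e, h1', h2', h3.smul g, h4.smul g⟩
    · rw [a] at h1'; rw [b] at h2'
      exact ⟨rho g e, h2', h1', h3.smul g, h4.smul g⟩
  refine ⟨fun h => ?_, key hg c d⟩
  have hg' : St g⁻¹ := by
    unfold St at *
    rw [map_inv, Equiv.Perm.inv_eq_iff_eq, Equiv.Perm.inv_eq_iff_eq, Equiv.Perm.inv_eq_iff_eq,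
      Equiv.Perm.inv_eq_iff_eq]
    rcases hg with ⟨a, b⟩ | ⟨a, b⟩
    · exact Or.inl ⟨a.symm, b.symm⟩
    · exact Or.inr ⟨b.symm, a.symm⟩
  have h1 := key hg' _ _ h
  rwa [map_inv, inv_app, inv_app] at h1

theorem E10_smul {g : Fi24} (hg : St g) (c d : ℕ) : E10 (rho g c) (rho g d) ↔ E10 c d := by
  unfold E10
  rw [ze_smul hg]
  exact (rho g).injective.eq_iff

theorem E11_smul {g : Fi24} (hg : St g) (c d : ℕ) : E11 (rho g c) (rho g d) ↔ E11 c d := by
  unfold E11
  rw [ze_smul hg]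
  exact adj_smul g _ _

/-- the code of a label -/
def code (t t' : Fin 5) (b7 b10 b11 : Bool) : Fin 13 :=
  if t = 4 ∧ t' = 4 then 0
  else if t = 4 ∨ t' = 4 then (if t = 3 ∨ t' = 3 then 1 else 2)
  else if t = 3 ∧ t' = 3 then 3
  else if t = 3 ∨ t' = 3 then (if t = 0 ∨ t' = 0 then 5 else 4)
  else if t = 0 ∧ t' = 0 then (if b10 then 10 else if b11 then 11 else 12)
  else if t = 0 ∨ t' = 0 then 9
  else if t = t' then 6
  else if b7 then 7 else 8

theorem code_symm : ∀ t t' b7 b10 b11, code t t' b7 b10 b11 = code t' t b7 b10 b11 := by decide +kernel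

theorem code_tsw : ∀ t t' b7 b10 b11, code (tsw t) (tsw t') b7 b10 b11 = code t t' b7 b10 b11 := by decide +kernel

open Classical in
/-- the label of the pair `{c, d}` -/
noncomputable def labN (c d : ℕ) : Fin 13 :=
  code (ty c) (ty d) (decide (E7 c d)) (decide (E10 c d)) (decide (E11 c d))

theorem labN_symm (c d : ℕ) : labN c d = labN d c := by
  unfold labN
  rw [code_symm]
  congr 1
  · exact decide_eq_decide.2 (E7_symm c d)
  · exact decide_eq_decide.2 (E10_symm c d)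
  · exact decide_eq_decide.2 (E11_symm c d)

theorem labN_smul {g : Fi24} (hg : St g) (c d : ℕ) : labN (rho g c) (rho g d) = labN c d := by
  classical
  unfold labN
  simp only [E7_smul hg, E10_smul hg, E11_smul hg]
  rcases hg with ⟨a, b⟩ | ⟨a, b⟩
  · rw [ty_fix a b, ty_fix a b]
  · rw [ty_swap a b, ty_swap a b, code_tsw]

/-! ### Types and masks -/

theorem nb_one (q : ℕ) : Adj 1 q ↔ N1.testBit q = true := adj_word (rho_of_chkPt chk_u1) q

theorem tb2 (p : ℕ) : (2 : ℕ).testBit p = decide (p = 1) := by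
  have : (2 : ℕ) = 2 ^ 1 := rfl
  rw [this, Nat.testBit_two_pow]
  exact decide_eq_decide.2 ⟨Eq.symm, Eq.symm⟩

theorem tb1 (p : ℕ) : (1 : ℕ).testBit p = decide (p = 0) := by
  have : (1 : ℕ) = 2 ^ 0 := rfl
  rw [this, Nat.testBit_two_pow]
  exact decide_eq_decide.2 ⟨Eq.symm, Eq.symm⟩

theorem UG_of_UW {p : ℕ} (h : UW.testBit p = true) : UG.testBit p = true := by
  have h1 : UG &&& UW = UW := Nat.eq_of_beq_eq_true sub_UW
  have h2 := congrArg (fun x => Nat.testBit x p) h1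
  simp only [Nat.testBit_and] at h2
  rw [h, Bool.and_true] at h2
  exact h2

theorem UG_of_N1 {p : ℕ} (h : N1.testBit p = true) : UG.testBit p = true := by
  have h1 : UG &&& N1 = N1 := Nat.eq_of_beq_eq_true sub_N1
  have h2 := congrArg (fun x => Nat.testBit x p) h1
  simp only [Nat.testBit_and] at h2
  rw [h, Bool.and_true] at h2
  exact h2

theorem UW0 : UW.testBit 0 = false := by rw [← tb_eq]; exact tb_UW_0
theorem UW1 : UW.testBit 1 = true := by rw [← tb_eq]; exact tb_UW_1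
theorem N10 : N1.testBit 0 = true := by rw [← tb_eq]; exact tb_N1_0
theorem N11 : N1.testBit 1 = false := by rw [← tb_eq]; exact tb_N1_1

open Classical in
theorem ty_eq (p : ℕ) : ty p = if p = 0 ∨ p = 1 then 4 else if UW.testBit p = true ∧ N1.testBit p = true then 3
    else if UW.testBit p = true then 1 else if N1.testBit p = true then 2 else 0 := by
  unfold ty
  have a0 := adj_zero p
  have a1 := nb_one p
  by_cases b : p = 0 ∨ p = 1
  · rw [if_pos b, if_pos b]
  · rw [if_neg b, if_neg b]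
    by_cases c0 : Adj 0 p <;> by_cases c1 : Adj 1 p <;> simp [c0, c1, ← a0, ← a1]

theorem bM3 (p : ℕ) : M3.testBit p = decide (ty p = 3) := by
  have e : M3.testBit p = (UW.testBit p && N1.testBit p) := Nat.testBit_and _ _ _
  rw [e, ty_eq]
  by_cases h0 : p = 0
  · subst h0; rw [UW0, N10]; simp
  by_cases h1 : p = 1
  · subst h1; rw [UW1, N11]; simp
  cases h2 : UW.testBit p <;> cases h3 : N1.testBit p <;> simp [h0, h1]

theorem bM1 (p : ℕ) : M1.testBit p = decide (ty p = 1) := by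
  have e : M1.testBit p = ((UW.testBit p ^^ (UW.testBit p && N1.testBit p)) ^^ decide (p = 1)) := by
    rw [← tb2, ← Nat.testBit_and, ← Nat.testBit_xor, ← Nat.testBit_xor]
    rfl
  rw [e, ty_eq]
  by_cases h0 : p = 0
  · subst h0; rw [UW0, N10]; simp
  by_cases h1 : p = 1
  · subst h1; rw [UW1, N11]; simp
  cases h2 : UW.testBit p <;> cases h3 : N1.testBit p <;> simp [h0, h1]

theorem bM2 (p : ℕ) : M2.testBit p = decide (ty p = 2) := by
  have e : M2.testBit p = ((N1.testBit p ^^ (UW.testBit p && N1.testBit p)) ^^ decide (p = 0)) := by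
    rw [← tb1, ← Nat.testBit_and, ← Nat.testBit_xor, ← Nat.testBit_xor]
    rfl
  rw [e, ty_eq]
  by_cases h0 : p = 0
  · subst h0; rw [UW0, N10]; simp
  by_cases h1 : p = 1
  · subst h1; rw [UW1, N11]; simp
  cases h2 : UW.testBit p <;> cases h3 : N1.testBit p <;> simp [h0, h1]

theorem bM0 {p : ℕ} (hp : UG.testBit p = true) : M0.testBit p = decide (ty p = 0) := by
  have e : M0.testBit p = (UG.testBit p ^^ (UW.testBit p || N1.testBit p)) := by
    rw [← Nat.testBit_or, ← Nat.testBit_xor]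
    rfl
  rw [e, ty_eq, hp]
  by_cases h0 : p = 0
  · subst h0; rw [UW0, N10]; simp
  by_cases h1 : p = 1
  · subst h1; rw [UW1, N11]; simp
  cases h2 : UW.testBit p <;> cases h3 : N1.testBit p <;> simp [h0, h1]

theorem b4 (p : ℕ) : decide (p = 0 ∨ p = 1) = decide (ty p = 4) := by
  rw [ty_eq]
  by_cases h0 : p = 0
  · simp [h0]
  by_cases h1 : p = 1
  · simp [h1]
  cases h2 : UW.testBit p <;> cases h3 : N1.testBit p <;> simp [h0, h1]

theorem ty_four {p : ℕ} : ty p = 4 ↔ p = 0 ∨ p = 1 := (decide_eq_decide.1 (b4 p)).symm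

theorem ty_three {p : ℕ} : ty p = 3 ↔ M3.testBit p = true := by rw [bM3]; simp

theorem ty_one {p : ℕ} : ty p = 1 ↔ M1.testBit p = true := by rw [bM1]; simp

theorem ty_two {p : ℕ} : ty p = 2 ↔ M2.testBit p = true := by rw [bM2]; simp

theorem ty_zero {p : ℕ} (hp : UG.testBit p = true) : ty p = 0 ↔ M0.testBit p = true := by rw [bM0 hp]; simp

end Cfsg.Agent.H492.Fi24P.Pair
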