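import Cfsg.Agent.H492.Fi24P.Scheme

/-!
# `Fi24` on the 306936 transpositions: the rational irreducible character of degree 57477 (helper492)
-/

set_option autoImplicit false
set_option maxRecDepth 100000
set_option exponentiation.threshold 600000

namespace Cfsg.Agent.H492.Fi24P.Point

open Cfsg Cfsg.Agent.Lib.PermNet Cfsg.Agent.Lib.PermNetOrbit Cfsg.Agent.Lib.PermNetPt
open Cfsg.Agent.Fischer.Fi24RepDef Cfsg.Agent.Fischer.Fi24Rep Cfsg.Agent.Fischer.Fi24RepOrbData
open Cfsg.Agent.Fischer.Fi24RepOrb (UG H orbW orbG orbR testBit_UG disj zero_not)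
open Cfsg.Agent.KFacts.FiTF.Pts Cfsg.Agent.KFacts.FiTF.FixMask
open Cfsg.Agent.H492.Fi24P.Chk Cfsg.Agent.H492.Fi24P.Chk2 Cfsg.Agent.H492.Fi24P.Pair Cfsg.Agent.H492.Fi24P.Can
  Cfsg.Agent.H492.Fi24P.Lab Cfsg.Agent.H492.Fi24P.Scheme
open Cfsg.Spor (Fi24)
open Cfsg.Spor.Fi24 (Gen)

/-- the points -/
def Y : Type := {p : ℕ // ∃ g : Fi24, rho g 0 = p}

theorem Y.ext {x y : Y} (h : x.1 = y.1) : x = y := Subtype.ext h

noncomputable instance instActY : MulAction Fi24 Y where
  smul g x := ⟨rho g x.1, by
    obtain ⟨k, hk⟩ := x.2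
    exact ⟨g * k, by rw [map_mul, Equiv.Perm.mul_apply, hk]⟩⟩
  one_smul x := Y.ext (by
    show rho 1 x.1 = x.1
    rw [map_one]; rfl)
  mul_smul g h x := Y.ext (by
    show rho (g * h) x.1 = rho g (rho h x.1)
    rw [map_mul]; rfl)

theorem smul_val (g : Fi24) (x : Y) : (g • x).1 = rho g x.1 := rfl

instance instFiniteY : Finite Y := by
  have hF : Finite Fi24 := Cfsg.Agent.R08.FiTwentyFour.finite_Fi24
  exact Finite.of_surjective (fun g : Fi24 => (⟨rho g 0, g, rfl⟩ : Y)) (by
    intro x
    obtain ⟨s, g, hg⟩ := x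
    exact ⟨g, Y.ext hg⟩)

def y0 : Y := ⟨0, 1, by simp⟩

/-- the masks of the labels -/
noncomputable def ms : List ℕ := [1, UW, UR]

/-- the label -/
noncomputable def lp (p : ℕ) : Fin 3 := if p = 0 then 0 else if UW.testBit p = true then 1 else 2

theorem lp_iff {p : ℕ} (hp : UG.testBit p = true) (j : Fin 3) : lp p = j ↔ (ms.getD j 0).testBit p = true := by
  have h0 := testBit_UG p
  rw [hp] at h0
  have h1 := disj p
  unfold lp ms
  by_cases e : p = 0
  · subst e
    have a1 : UW.testBit 0 = false := UW0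
    have a2 : UR.testBit 0 = false := by
      cases h : UR.testBit 0
      · rfl
      · exact absurd (Or.inr h) zero_not
    fin_cases j
    · simp
    · simp [a1]
    · simp [a2]
  · rw [if_neg e]
    have a0 : (1 : ℕ).testBit p = false := by rw [tb1]; simp [e]
    cases h2 : UW.testBit p
    · have h3 : UR.testBit p = true := by
        rw [h2] at h0; simpa [e] using h0.symm
      fin_cases j
      · simp [a0]
      · simp [h2]
      · simp [h3]
    · have h3 : UR.testBit p = false := by
        rw [h2] at h1; simpa using h1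
      fin_cases j
      · simp [a0]
      · simp [h2]
      · simp [h3]

noncomputable def labY (x : Y) : Fin 3 := lp x.1

/-- The collapsed matrix. -/
def k3 : Fin 3 → Fin 3 → ℕ := ![![0, 31671, 0], ![1, 3510, 28160], ![0, 3240, 28431]]

def r3 : Fin 3 → List ℕ := ![[0, 31671, 0], [1, 3510, 28160], [0, 3240, 28431]]

theorem r3_eq : ∀ i j : Fin 3, (r3 i).getD j 0 = k3 i j := by decide +kernel

theorem r3_len : ∀ i : Fin 3, (r3 i).length = 3 := by decide +kernel

def pts : Fin 3 → ℕ := ![0, 1, 307872]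

def uu : Fin 3 → List Gen := ![Chk.u0, u1, u307872]

theorem uu_pt (i : Fin 3) : rho (word (uu i)) 0 = pts i := by
  fin_cases i
  · exact rho_of_chkPt chk_u0
  · exact rho_of_chkPt chk_u1
  · exact rho_of_chkPt chk_u307872

theorem rk0 : rowOk (nb (uu 0)) ms [] [0, 31671, 0] = true := by decide +kernel
theorem rk1 : rowOk (nb (uu 1)) ms [] [1, 3510, 28160] = true := by decide +kernel
theorem rk2 : rowOk (nb (uu 2)) ms [] [0, 3240, 28431] = true := by decide +kernel

theorem rk (i : Fin 3) : rowOk (nb (uu i)) ms [] (r3 i) = true := by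
  fin_cases i
  · exact rk0
  · exact rk1
  · exact rk2

noncomputable def repY (i : Fin 3) : Y := ⟨pts i, word (uu i), uu_pt i⟩

theorem rowY (i j : Fin 3) : Nat.card {z : Y // Adj (repY i).1 z.1 ∧ labY z = j} = k3 i j := by
  rw [← r3_eq]
  obtain ⟨h1, h2⟩ := rowOk_aux _ _ _ _ 0 (rk i)
  have h3 := h2 j (by rw [r3_len]; exact j.2)
  rw [← h3, Nat.zero_add, cnt_spec h1, cnt_spec h1]
  have e0 : {p : ℕ | (nb (uu i)).testBit p = true ∧ (([] : List ℕ).getD (j : ℕ) 0).testBit p = true}.ncard = 0 := by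
    rw [Set.ncard_eq_zero ((fin_bits (nb (uu i))).subset fun p hp => hp.1)]
    ext p
    simp
  rw [e0, add_zero]
  have e1 : Nat.card {z : Y // Adj (repY i).1 z.1 ∧ labY z = j} =
      ((Subtype.val : Y → ℕ) '' {z : Y | Adj (repY i).1 z.1 ∧ labY z = j}).ncard := by
    rw [Set.ncard_image_of_injective _ Subtype.val_injective]
    rfl
  rw [e1]
  congr 1
  ext p
  constructor
  · rintro ⟨z, ⟨ha, hl⟩, rfl⟩
    exact ⟨(adj_word (uu_pt i) z.1).1 ha, (lp_iff ha.symm.bitUG j).1 hl⟩
  · rintro ⟨ha, hl⟩
    have ha' : Adj (pts i) p := (adj_word (uu_pt i) p).2 ha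
    have hp : ∃ g : Fi24, rho g 0 = p := by
      obtain ⟨g, hg, -⟩ := ha'.symm
      exact ⟨g, hg⟩
    exact ⟨⟨p, hp⟩, ⟨ha', (lp_iff ha'.symm.bitUG j).2 hl⟩, rfl⟩

theorem bitY (y : Y) : UG.testBit y.1 = true := by
  have h1 : y.1 ∈ {p : ℕ | ∃ x, rho x 0 = p} := y.2
  rw [orbG] at h1
  exact h1

theorem lp_fix {g : Fi24} (hg : rho g 0 = 0) (p : ℕ) : lp (rho g p) = lp p := by
  have e0 : rho g p = 0 ↔ p = 0 := by
    constructor
    · intro h; exact (rho g).injective (by rw [h, hg])
    · rintro rfl; exact hg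
  have e1 : UW.testBit (rho g p) = UW.testBit p := by
    have := adj_smul g 0 p
    rw [hg, adj_zero, adj_zero] at this
    cases h : UW.testBit p <;> cases h' : UW.testBit (rho g p) <;> rw [h, h'] at this <;> simp_all
  unfold lp
  simp only [e0, e1]

theorem schY : GSetIrr.Sch Fi24 y0 (fun x y : Y => Adj x.1 y.1) labY repY k3 id 0 where
  tr x := by
    obtain ⟨s, g, hg⟩ := x
    exact ⟨g, Y.ext hg⟩
  Rg g x y h := h.smul g
  Rs x y h := h.symm
  lab_smul g hg y := lp_fix (congrArg Subtype.val hg) y.1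
  orb x := by
    have hU := bitY x
    by_cases h0 : x.1 = 0
    · refine ⟨1, one_smul _ _, ?_⟩
      rw [one_smul]
      have : labY x = 0 := by unfold labY lp; rw [if_pos h0]
      rw [this]
      exact Y.ext h0
    · by_cases h1 : UW.testBit x.1 = true
      · obtain ⟨g, hg, hg1⟩ := (adj_zero x.1).2 h1
        have : labY x = 1 := by unfold labY lp; rw [if_neg h0, if_pos h1]
        refine ⟨g⁻¹, Y.ext ?_, Y.ext ?_⟩
        · rw [smul_val, map_inv, Equiv.Perm.inv_eq_iff_eq]
          exact hg.symm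
        · rw [this, smul_val, map_inv, Equiv.Perm.inv_eq_iff_eq]
          exact hg1.symm
      · have h2 : UR.testBit x.1 = true := by
          have h3 := testBit_UG x.1
          rw [hU] at h3
          have h4 : UW.testBit x.1 = false := by simpa using h1
          rw [h4] at h3
          simpa [h0] using h3.symm
        have h5 : x.1 ∈ {p : ℕ | ∃ x ∈ H, rho x 307872 = p} := by rw [orbR]; exact h2
        obtain ⟨g, hg, hg1⟩ := h5
        have : labY x = 2 := by unfold labY lp; rw [if_neg h0, if_neg h1]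
        refine ⟨g⁻¹, Y.ext ?_, Y.ext ?_⟩
        · rw [smul_val, map_inv, Equiv.Perm.inv_eq_iff_eq]
          exact ((hst g).2 hg).symm
        · rw [this, smul_val, map_inv, Equiv.Perm.inv_eq_iff_eq]
          exact hg1.symm
  lab_rep i := by
    fin_cases i
    · show lp 0 = 0
      unfold lp; rw [if_pos rfl]
    · show lp 1 = 1
      unfold lp; rw [if_neg one_ne_zero, if_pos UW1]
    · show lp 307872 = 2
      have h1 : UW.testBit 307872 = false := by
        have := t307872
        rw [ty_eq] at this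
        cases h : UW.testBit 307872
        · rfl
        · rw [h] at this; split_ifs at this <;> simp_all
      unfold lp; rw [if_neg (by norm_num), h1, if_neg (by decide)]
  hi0 := Y.ext rfl
  row := rowY
  inv i := by
    have key : ∀ {g : Fi24} {p : ℕ}, rho g 0 = p → lp (rho g⁻¹ 0) = lp p := by
      intro g p hg
      have e0 : rho g⁻¹ 0 = 0 ↔ p = 0 := by
        rw [map_inv, Equiv.Perm.inv_eq_iff_eq, ← hg]
        exact eq_comm
      have e1 : UW.testBit (rho g⁻¹ 0) = UW.testBit p := by
        have h1 : Adj 0 (rho g⁻¹ 0) ↔ Adj 0 p := by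
          rw [← adj_smul g 0 (rho g⁻¹ 0), hg, map_inv, app_inv]
          exact ⟨Adj.symm, Adj.symm⟩
        rw [adj_zero, adj_zero] at h1
        cases h : UW.testBit p <;> cases h' : UW.testBit (rho g⁻¹ 0) <;> rw [h, h'] at h1 <;> simp_all
      unfold lp
      simp only [e0, e1]
    refine ⟨word (uu i), Y.ext (uu_pt i), ?_⟩
    show lp (rho (word (uu i))⁻¹ 0) = i
    rw [key (uu_pt i)]
    fin_cases i
    · show lp 0 = 0
      unfold lp; rw [if_pos rfl]
    · show lp 1 = 1
      unfold lp; rw [if_neg one_ne_zero, if_pos UW1]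
    · show lp 307872 = 2
      have h1 : UW.testBit 307872 = false := by
        have := t307872
        rw [ty_eq] at this
        cases h : UW.testBit 307872
        · rfl
        · rw [h] at this; split_ifs at this <;> simp_all
      unfold lp; rw [if_neg (by norm_num), h1, if_neg (by decide)]

def s3 : Fin 3 → ℕ := ![1, 31671, 275264]

theorem card_labY (i : Fin 3) : Nat.card {x : Y // labY x = i} = s3 i := by
  have h0 : Nat.card {x : Y // labY x = 0} = 1 := schY.card_zero
  have d01 := schY.double 0 1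
  have d12 := schY.double 1 2
  have e01 : k3 0 1 = 31671 ∧ k3 1 0 = 1 := by decide +kernel
  have e12 : k3 1 2 = 28160 ∧ k3 2 1 = 3240 := by decide +kernel
  rw [e01.1, e01.2] at d01
  rw [e12.1, e12.2] at d12
  fin_cases i
  · exact h0
  · show Nat.card {x : Y // labY x = 1} = 31671
    omega
  · show Nat.card {x : Y // labY x = 2} = 275264
    omega

theorem card_Y : Nat.card Y = 306936 := by
  rw [GSetIrr.card_fibers labY, Finset.sum_congr rfl fun i _ => card_labY i]
  decide +kernel

/-- the eigenvector -/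
noncomputable def v3 : Fin 3 → ℂ := ![1, 13 / 1173, -1 / 782]

theorem exists_c : ∃ χ : IrrCharacter Fi24, (χ : Fi24 → ℂ) 1 = 57477 ∧
    ∀ σ : ℂ →+* ℂ, ∀ g, σ ((χ : Fi24 → ℂ) g) = (χ : Fi24 → ℂ) g := by
  have hF : Finite Fi24 := Cfsg.Agent.R08.FiTwentyFour.finite_Fi24
  obtain ⟨χ, h1, h2⟩ := schY.exists_irr v3 351 rfl (fun i => rfl)
    (by
      intro i
      fin_cases i <;> simp [k3, v3, Fin.sum_univ_succ] <;> norm_num)
    (by
      intro x h i
      have a0 := h 0
      have a1 := h 1
      simp [k3, Fin.sum_univ_succ] at a0 a1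
      have b1 : x 1 = x 0 * (13 / 1173) := by linear_combination a0 / 31671
      have b2 : x 2 = x 0 * (-1 / 782) := by
        rw [b1] at a1
        linear_combination a1 / 28160
      fin_cases i
      · show x 0 = x 0 * 1
        rw [mul_one]
      · exact b1
      · exact b2)
    (K := 306936 / 57477) (by
      rw [Finset.sum_congr rfl fun i _ => by rw [card_labY i]]
      simp [s3, v3, Fin.sum_univ_succ]
      norm_num) (by norm_num)
  refine ⟨χ, ?_, fun σ => h2 σ fun i => ?_⟩
  · rw [card_Y] at h1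
    push_cast at h1
    linear_combination (57477 / 306936 : ℂ) * h1
  · fin_cases i
    · exact map_one σ
    · show σ (13 / 1173) = 13 / 1173
      simp only [map_div₀, map_ofNat]
    · show σ (-1 / 782) = -1 / 782
      simp only [map_div₀, map_neg, map_one, map_ofNat]

end Cfsg.Agent.H492.Fi24P.Point
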