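import Cfsg.Agent.H492.Fi24P.Lab

/-!
# `Fi24` on the commuting pairs of transpositions: the scheme, rational irreducible characters of degree 555611 and
79452373 (helper492)
-/

set_option autoImplicit false
set_option maxRecDepth 100000
set_option exponentiation.threshold 600000

namespace Cfsg.Agent.H492.Fi24P.Scheme

open Cfsg Cfsg.Agent.Lib.PermNet Cfsg.Agent.Lib.PermNetOrbit Cfsg.Agent.Lib.PermNetPt
open Cfsg.Agent.Fischer.Fi24RepDef Cfsg.Agent.Fischer.Fi24Rep Cfsg.Agent.Fischer.Fi24RepOrbData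
open Cfsg.Agent.Fischer.Fi24RepOrb (UG H orbW orbG)
open Cfsg.Agent.KFacts.FiTF.Pts Cfsg.Agent.KFacts.FiTF.FixMask
open Cfsg.Agent.H492.Fi24P.Chk Cfsg.Agent.H492.Fi24P.Chk2 Cfsg.Agent.H492.Fi24P.Pair Cfsg.Agent.H492.Fi24P.Can
  Cfsg.Agent.H492.Fi24P.Lab Cfsg.Agent.H492.Fi24P.Num
open Cfsg.Spor (Fi24)
open Cfsg.Spor.Fi24 (Gen)

/-- the commuting pairs -/
def X : Type := {s : Sym2 ℕ // ∃ g : Fi24, s = s(rho g 0, rho g 1)}

theorem X.ext {x y : X} (h : x.1 = y.1) : x = y := Subtype.ext h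

noncomputable instance instActX : MulAction Fi24 X where
  smul g x := ⟨x.1.map (rho g), by
    obtain ⟨k, hk⟩ := x.2
    refine ⟨g * k, ?_⟩
    rw [hk, Sym2.map_mk, map_mul]
    rfl⟩
  one_smul x := X.ext (by
    show x.1.map (rho 1) = x.1
    rw [map_one]
    have : ⇑(1 : Equiv.Perm ℕ) = id := rfl
    rw [this, Sym2.map_id]
    rfl)
  mul_smul g h x := X.ext (by
    show x.1.map (rho (g * h)) = (x.1.map (rho h)).map (rho g)
    rw [Sym2.map_map, map_mul]
    rfl)

theorem smul_val (g : Fi24) (x : X) : (g • x).1 = x.1.map (rho g) := rfl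

/-- a pair -/
def mk (c d : ℕ) (h : Adj c d) : X := ⟨s(c, d), by obtain ⟨g, rfl, rfl⟩ := h; exact ⟨g, rfl⟩⟩

theorem exists_mk (x : X) : ∃ (c d : ℕ) (h : Adj c d), x = mk c d h := by
  obtain ⟨s, g, hg⟩ := x
  exact ⟨rho g 0, rho g 1, ⟨g, rfl, rfl⟩, X.ext hg⟩

theorem smul_mk (g : Fi24) {c d : ℕ} (h : Adj c d) : g • mk c d h = mk (rho g c) (rho g d) (h.smul g) :=
  X.ext rfl

def x0 : X := mk 0 1 ⟨1, by simp, by simp⟩

theorem smul_x0 (g : Fi24) : g • x0 = x0 ↔ St g := by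
  have h1 : g • x0 = x0 ↔ s(rho g 0, rho g 1) = s(0, 1) :=
    ⟨fun h => congrArg Subtype.val h, fun h => X.ext h⟩
  rw [h1, Sym2.eq_iff]
  rfl

instance instFiniteX : Finite X := by
  have hF : Finite Fi24 := Cfsg.Agent.R08.FiTwentyFour.finite_Fi24
  exact Finite.of_surjective (fun g : Fi24 => g • x0) (by
    intro x
    obtain ⟨s, g, hg⟩ := x
    exact ⟨g, X.ext hg.symm⟩)

/-- the label -/
noncomputable def lab (x : X) : Fin 13 := Sym2.lift ⟨labN, labN_symm⟩ x.1

theorem lab_of_val {x : X} {c d : ℕ} (h : x.1 = s(c, d)) : lab x = labN c d := by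
  unfold lab
  rw [h]
  rfl

theorem lab_smul {g : Fi24} (hg : St g) (x : X) : lab (g • x) = lab x := by
  obtain ⟨c, d, h, rfl⟩ := exists_mk x
  rw [smul_mk, lab_of_val (x := mk _ _ _) rfl, lab_of_val (x := mk _ _ _) rfl, labN_smul hg]

/-! ### The representatives -/

def wl : Fin 13 → List Gen := ![Chk2.w0, Chk2.w1, w2, w3, w4, w5, w6, w7, w8, w9, w10, w11, w12]

/-- the image of the base pair under the word -/
def wc : Fin 13 → ℕ × ℕ := ![(0, 1), (0, 3), (0, 193), (2, 3), (193, 3), (307872, 3), (193, 199), (193, 308002),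
  (193, 279083), (307872, 193), (307872, 307841), (307872, 307842), (307872, 305410)]

/-- the preimage of the base pair -/
def wi : Fin 13 → ℕ × ℕ := ![(0, 1), (0, 2), (0, 192), (2, 3), (2, 307072), (307968, 308002), (6, 289152),
  (192, 307970), (482, 276672), (307968, 307872), (307840, 307873), (307840, 307874), (307840, 305442)]

theorem wchk (i : Fin 13) : and (and (chkPt (nw (wl i) false) 0 (wc i).1) (chkPt (nw (wl i) false) 1 (wc i).2))
    (and (chkPt (nw (wl i).reverse false) 0 (wi i).1) (chkPt (nw (wl i).reverse false) 1 (wi i).2)) = true := by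
  fin_cases i
  · exact chk_w0
  · exact chk_w1
  · exact chk_w2
  · exact chk_w3
  · exact chk_w4
  · exact chk_w5
  · exact chk_w6
  · exact chk_w7
  · exact chk_w8
  · exact chk_w9
  · exact chk_w10
  · exact chk_w11
  · exact chk_w12

theorem wv (i : Fin 13) : (rho (word (wl i)) 0 = (wc i).1 ∧ rho (word (wl i)) 1 = (wc i).2) ∧
    rho (word (wl i))⁻¹ 0 = (wi i).1 ∧ rho (word (wl i))⁻¹ 1 = (wi i).2 := by
  have h := wchk i
  simp only [Bool.and_eq_true] at h
  rw [← word_reverse]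
  exact ⟨⟨rho_of_chkPt h.1.1, rho_of_chkPt h.1.2⟩, rho_of_chkPt h.2.1, rho_of_chkPt h.2.2⟩

theorem rp_eq (i : Fin 13) : rp i = s((wc i).1, (wc i).2) := by
  fin_cases i <;> first | rfl | exact Sym2.eq_swap

noncomputable def rep (i : Fin 13) : X := ⟨rp i, word (wl i), by rw [rp_eq, (wv i).1.1, (wv i).1.2]⟩

theorem rep_smul (i : Fin 13) : word (wl i) • x0 = rep i := X.ext (by
  show s(rho (word (wl i)) 0, rho (word (wl i)) 1) = rp i
  rw [rp_eq, (wv i).1.1, (wv i).1.2])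

theorem lab_rep (i : Fin 13) : lab (rep i) = i := by
  fin_cases i
  · exact (lab_of_val (x := rep 0) (c := 0) (d := 1) rfl).trans (lab_of t0 t1 (by decide))
  · exact (lab_of_val (x := rep 1) (c := 0) (d := 3) rfl).trans (lab_of t0 t3 (by decide))
  · exact (lab_of_val (x := rep 2) (c := 0) (d := 193) rfl).trans (lab_of t0 t193 (by decide))
  · exact (lab_of_val (x := rep 3) (c := 3) (d := 2) rfl).trans (lab_of t3 t2 (by decide))
  · exact (lab_of_val (x := rep 4) (c := 3) (d := 193) rfl).trans (lab_of t3 t193 (by decide))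
  · exact (lab_of_val (x := rep 5) (c := 3) (d := 307872) rfl).trans (lab_of t3 t307872 (by decide))
  · exact (lab_of_val (x := rep 6) (c := 193) (d := 199) rfl).trans (lab_of t193 t199 (by decide))
  · exact (lab_of_val (x := rep 7) (c := 193) (d := 308002) rfl).trans (lab7 t193 t308002 E7_7)
  · exact (lab_of_val (x := rep 8) (c := 193) (d := 279083) rfl).trans (lab8 t193 t279083 E7_8)
  · exact (lab_of_val (x := rep 9) (c := 193) (d := 307872) rfl).trans (lab_of t193 t307872 (by decide))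
  · exact (lab_of_val (x := rep 10) (c := 307872) (d := 307841) rfl).trans (lab10 t307872 t307841 E10_10)
  · exact (lab_of_val (x := rep 11) (c := 307872) (d := 307842) rfl).trans (lab11 t307872 t307842 E10_11 E11_11)
  · exact (lab_of_val (x := rep 12) (c := 307872) (d := 305410) rfl).trans (lab12 t307872 t305410 E10_12 E11_12)

/-- `E7` and the inverse -/
theorem E7_inv (g : Fi24) : E7 (rho g⁻¹ 0) (rho g⁻¹ 1) ↔ E7 (rho g 0) (rho g 1) := by
  have key : ∀ g : Fi24, E7 (rho g 0) (rho g 1) → E7 (rho g⁻¹ 0) (rho g⁻¹ 1) := by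
    rintro g ⟨e, h0, h1, h2, h3⟩
    refine ⟨rho g⁻¹ e, ?_, ?_, h0.smul g⁻¹, h1.smul g⁻¹⟩
    · have := h2.smul g⁻¹
      rwa [map_inv, inv_app, ← map_inv] at this
    · have := h3.smul g⁻¹
      rwa [map_inv, inv_app, ← map_inv] at this
  refine ⟨fun h => ?_, key g⟩
  have := key g⁻¹ h
  rwa [inv_inv] at this

theorem lab_inv (i : Fin 13) : lab ((word (wl i))⁻¹ • x0) = Num.tau i := by
  have h0 : ((word (wl i))⁻¹ • x0).1 = s((wi i).1, (wi i).2) := by
    rw [← (wv i).2.1, ← (wv i).2.2]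
    rfl
  rw [lab_of_val h0]
  fin_cases i
  · exact lab_of t0 t1 (by decide)
  · exact lab_of t0 t2 (by decide)
  · exact lab_of t0 t192 (by decide)
  · exact lab_of t2 t3 (by decide)
  · exact lab_of t2 t307072 (by decide)
  · exact lab_of t307968 t308002 (by decide)
  · exact lab_of t6 t289152 (by decide)
  · refine lab7 t192 t307970 ?_
    have h := E7_inv (word (wl 7))
    rw [(wv 7).2.1, (wv 7).2.2, (wv 7).1.1, (wv 7).1.2] at h
    exact h.2 E7_7
  · have h := E7_inv (word (wl 8))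
    rw [(wv 8).2.1, (wv 8).2.2, (wv 8).1.1, (wv 8).1.2] at h
    exact lab8 t482 t276672 (fun hh => E7_8 (h.1 hh))
  · exact lab_of t307968 t307872 (by decide)
  · exact lab10 t307840 t307873 E10_10'
  · exact lab11 t307840 t307874 E10_11' E11_11'
  · exact lab12 t307840 t305442 E10_12' E11_12'

/-! ### The relation -/

/-- the pairs share one member, and the three members commute -/
def R (x y : X) : Prop := ∃ c d f : ℕ, x.1 = s(c, d) ∧ y.1 = s(c, f) ∧ Adj c d ∧ Adj c f ∧ Adj d f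

theorem R.smul {x y : X} (h : R x y) (g : Fi24) : R (g • x) (g • y) := by
  obtain ⟨c, d, f, h1, h2, h3, h4, h5⟩ := h
  refine ⟨rho g c, rho g d, rho g f, ?_, ?_, h3.smul g, h4.smul g, h5.smul g⟩
  · rw [smul_val, h1]; rfl
  · rw [smul_val, h2]; rfl

theorem R.symm {x y : X} (h : R x y) : R y x := by
  obtain ⟨c, d, f, h1, h2, h3, h4, h5⟩ := h
  exact ⟨c, f, d, h2, h1, h4, h3, h5.symm⟩

/-! ### Counting -/

theorem fin_bits (U : ℕ) : {p : ℕ | U.testBit p = true}.Finite := by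
  refine (Set.finite_lt_nat (U + 1)).subset ?_
  intro p hp
  have h1 := Nat.ge_two_pow_of_testBit hp
  have h2 : p < 2 ^ p := Nat.lt_two_pow_self
  show p < U + 1
  omega

/-- the neighbours of `s(c, d)` with label `j` -/
theorem row_card {x : X} {c d : ℕ} (hx : x.1 = s(c, d)) (hcd : Adj c d) (j : Fin 13) :
    Nat.card {z : X // R x z ∧ lab z = j} =
      {f : ℕ | Adj c f ∧ Adj d f ∧ labN c f = j}.ncard + {f : ℕ | Adj c f ∧ Adj d f ∧ labN d f = j}.ncard := by
  have hfin : ∀ P : ℕ → Prop, {f : ℕ | Adj c f ∧ Adj d f ∧ P f}.Finite := fun P =>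
    (fin_bits UG).subset fun f hf => hf.1.symm.bitUG
  have e1 : (Subtype.val : X → Sym2 ℕ) '' {z : X | R x z ∧ lab z = j} =
      (fun f => s(c, f)) '' {f : ℕ | Adj c f ∧ Adj d f ∧ labN c f = j} ∪
        (fun f => s(d, f)) '' {f : ℕ | Adj c f ∧ Adj d f ∧ labN d f = j} := by
    ext s
    constructor
    · rintro ⟨z, ⟨⟨c', d', f, h1, h2, h3, h4, h5⟩, hl⟩, rfl⟩
      rw [hx, Sym2.eq_iff] at h1
      rw [lab_of_val h2] at hl
      rcases h1 with ⟨rfl, rfl⟩ | ⟨rfl, rfl⟩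
      · exact Or.inl ⟨f, ⟨h4, h5, hl⟩, h2.symm⟩
      · exact Or.inr ⟨f, ⟨h5, h4, hl⟩, h2.symm⟩
    · rintro (⟨f, ⟨h1, h2, hl⟩, rfl⟩ | ⟨f, ⟨h1, h2, hl⟩, rfl⟩)
      · exact ⟨mk c f h1, ⟨⟨c, d, f, hx, rfl, hcd, h1, h2⟩, hl⟩, rfl⟩
      · exact ⟨mk d f h2, ⟨⟨d, c, f, by rw [hx, Sym2.eq_swap], rfl, hcd.symm, h2, h1⟩, hl⟩, rfl⟩
  have e2 : Nat.card {z : X // R x z ∧ lab z = j} = ((Subtype.val : X → Sym2 ℕ) '' {z : X | R x z ∧ lab z = j}).ncard := by
    rw [Set.ncard_image_of_injective _ Subtype.val_injective]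
    rfl
  rw [e2, e1, Set.ncard_union_eq ?_ ((hfin _).image _) ((hfin _).image _)]
  · rw [Set.InjOn.ncard_image, Set.InjOn.ncard_image]
    · intro f _ f' _ h
      have h' : s(d, f) = s(d, f') := h
      rw [Sym2.eq_iff] at h'
      rcases h' with ⟨-, h'⟩ | ⟨h1, h2⟩
      · exact h'
      · rw [h2, ← h1]
    · intro f _ f' _ h
      have h' : s(c, f) = s(c, f') := h
      rw [Sym2.eq_iff] at h'
      rcases h' with ⟨-, h'⟩ | ⟨h1, h2⟩
      · exact h'
      · rw [h2, ← h1]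
  · rw [Set.disjoint_left]
    rintro s ⟨f, hf, rfl⟩ ⟨f', hf', h⟩
    have h' : s(d, f') = s(c, f) := h
    rw [Sym2.eq_iff] at h'
    rcases h' with ⟨h1, -⟩ | ⟨h1, -⟩
    · exact hcd.ne h1.symm
    · exact hf.2.1.ne h1

theorem rowOk_aux (F : ℕ) (A B : List ℕ) : ∀ (n : List ℕ) (j : ℕ),
    (List.rec (motive := fun _ => ℕ → Bool) (fun _ => Nat.beq (Nat.shiftRight F (Nat.pow 2 19)) 0)
      (fun x _ ih j => and (Nat.beq (Nat.add (cnt F A j) (cnt F B j)) x) (ih (Nat.succ j))) n : ℕ → Bool) j = true →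
    Nat.beq (Nat.shiftRight F (Nat.pow 2 19)) 0 = true ∧
      ∀ i < n.length, cnt F A (j + i) + cnt F B (j + i) = n.getD i 0 := by
  intro n
  induction n with
  | nil => intro j h; exact ⟨h, fun i hi => absurd hi (by simp)⟩
  | cons x n ih =>
    intro j h
    have h' : and (Nat.beq (Nat.add (cnt F A j) (cnt F B j)) x) ((List.rec (motive := fun _ => ℕ → Bool)
      (fun _ => Nat.beq (Nat.shiftRight F (Nat.pow 2 19)) 0)
      (fun x _ ih j => and (Nat.beq (Nat.add (cnt F A j) (cnt F B j)) x) (ih (Nat.succ j))) n : ℕ → Bool) (Nat.succ j))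
        = true := h
    rw [Bool.and_eq_true] at h'
    obtain ⟨h1, h2⟩ := ih (Nat.succ j) h'.2
    refine ⟨h1, fun i hi => ?_⟩
    cases i with
    | zero => simpa using Nat.eq_of_beq_eq_true h'.1
    | succ i =>
      have h3 := h2 i (by simpa using hi)
      have e : j + (i + 1) = Nat.succ j + i := by omega
      rw [List.getD_cons_succ, ← h3, e]

theorem cnt_spec {F : ℕ} (hF : Nat.beq (Nat.shiftRight F (Nat.pow 2 19)) 0 = true) (A : List ℕ) (j : ℕ) :
    cnt F A j = {p : ℕ | F.testBit p = true ∧ (A.getD j 0).testBit p = true}.ncard := by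
  have h1 : Nat.beq (Nat.shiftRight (Nat.land F (A.getD j 0)) (Nat.pow 2 19)) 0 = true := by
    have h2 : F >>> 2 ^ 19 = 0 := Nat.eq_of_beq_eq_true hF
    show Nat.beq ((F &&& A.getD j 0) >>> 2 ^ 19) 0 = true
    rw [Nat.shiftRight_and_distrib, h2, Nat.zero_and]
    rfl
  have h3 := ncard_testBit (k := 19) (U := Nat.land F (A.getD j 0)) (m := pc 19 (Nat.land F (A.getD j 0))) h1
    (Nat.beq_refl _)
  unfold cnt
  rw [seq_eq, ← h3]
  congr 1
  ext p
  show (F &&& A.getD j 0).testBit p = true ↔ F.testBit p = true ∧ (A.getD j 0).testBit p = true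
  rw [Nat.testBit_and, Bool.and_eq_true]

theorem row_of {x : X} {c d : ℕ} {uc ud : List Gen} {A B n : List ℕ} (hx : x.1 = s(c, d)) (hcd : Adj c d)
    (hc : rho (word uc) 0 = c) (hd : rho (word ud) 0 = d) (hA : LM c A) (hB : LM d B)
    (h : rowOk (Nat.land (nb uc) (nb ud)) A B n = true) (j : Fin 13) (hj : (j : ℕ) < n.length) :
    Nat.card {z : X // R x z ∧ lab z = j} = n.getD j 0 := by
  obtain ⟨h1, h2⟩ := rowOk_aux _ A B n 0 h
  have hF : ∀ f, (Nat.land (nb uc) (nb ud)).testBit f = true ↔ Adj c f ∧ Adj d f := by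
    intro f
    show (nb uc &&& nb ud).testBit f = true ↔ _
    rw [Nat.testBit_and, Bool.and_eq_true, ← adj_word hc, ← adj_word hd]
  rw [row_card hx hcd j, ← h2 j hj, Nat.zero_add, cnt_spec h1, cnt_spec h1]
  congr 2
  · ext f
    simp only [Set.mem_ofPred_eq]
    rw [hF]
    constructor
    · rintro ⟨a, b, e⟩; exact ⟨⟨a, b⟩, (hA.iff a j).1 e⟩
    · rintro ⟨⟨a, b⟩, e⟩; exact ⟨a, b, (hA.iff a j).2 e⟩
  · ext f
    simp only [Set.mem_ofPred_eq]
    rw [hF]
    constructor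
    · rintro ⟨a, b, e⟩; exact ⟨⟨a, b⟩, (hB.iff b j).1 e⟩
    · rintro ⟨⟨a, b⟩, e⟩; exact ⟨a, b, (hB.iff b j).2 e⟩

/-! ### The scheme -/

/-- the rows of the collapsed matrix as lists -/
def rows : Fin 13 → List ℕ := ![
  [0, 7020, 0, 0, 0, 0, 0, 0, 0, 0, 0, 0, 0],
  [1, 694, 2816, 693, 2816, 0, 0, 0, 0, 0, 0, 0, 0],
  [0, 351, 3159, 0, 351, 0, 3159, 0, 0, 0, 0, 0, 0],
  [0, 4, 0, 360, 2048, 4608, 0, 0, 0, 0, 0, 0, 0],
  [0, 1, 1, 126, 917, 2592, 567, 224, 0, 2592, 0, 0, 0],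
  [0, 0, 0, 63, 576, 2934, 0, 0, 0, 576, 1, 630, 2240],
  [0, 0, 2, 0, 126, 0, 1260, 112, 480, 5040, 0, 0, 0],
  [0, 0, 0, 0, 216, 0, 486, 486, 0, 5832, 0, 0, 0],
  [0, 0, 0, 0, 0, 0, 702, 0, 702, 5616, 0, 0, 0],
  [0, 0, 0, 0, 36, 36, 315, 84, 240, 3474, 0, 315, 2520],
  [0, 0, 0, 0, 0, 720, 0, 0, 0, 0, 0, 6300, 0],
  [0, 0, 0, 0, 0, 144, 0, 0, 0, 1152, 2, 1242, 4480],
  [0, 0, 0, 0, 0, 72, 0, 0, 0, 1296, 0, 630, 5022]]

theorem rows_eq : ∀ i j : Fin 13, (rows i).getD j 0 = kk i j := by decide +kernel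

theorem rows_len : ∀ i : Fin 13, (rows i).length = 13 := by decide +kernel

theorem row (i j : Fin 13) : Nat.card {z : X // R (rep i) z ∧ lab z = j} = kk i j := by
  rw [← rows_eq]
  have hj : (j : ℕ) < (rows i).length := by rw [rows_len]; exact j.2
  have r0 : rho (word Chk.u0) 0 = 0 := rho_of_chkPt chk_u0
  have r1 : rho (word u1) 0 = 1 := rho_of_chkPt chk_u1
  have r2 : rho (word u2) 0 = 2 := rho_of_chkPt chk_u2
  have r3 : rho (word u3) 0 = 3 := rho_of_chkPt chk_u3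
  have r193 : rho (word u193) 0 = 193 := rho_of_chkPt chk_u193
  have r199 : rho (word u199) 0 = 199 := rho_of_chkPt chk_u199
  have r308002 : rho (word u308002) 0 = 308002 := rho_of_chkPt chk_u308002
  have r279083 : rho (word u279083) 0 = 279083 := rho_of_chkPt chk_u279083
  have r307872 : rho (word u307872) 0 = 307872 := rho_of_chkPt chk_u307872
  have r307841 : rho (word u307841) 0 = 307841 := rho_of_chkPt chk_u307841
  have r307842 : rho (word u307842) 0 = 307842 := rho_of_chkPt chk_u307842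
  have r305410 : rho (word u305410) 0 = 305410 := rho_of_chkPt chk_u305410
  have hadj : ∀ i : Fin 13, Adj (wc i).1 (wc i).2 := fun i => ⟨word (wl i), (wv i).1.1, (wv i).1.2⟩
  fin_cases i
  · exact row_of (x := rep 0) rfl (hadj 0) r0 r1 LM_zero LM_one row0 j hj
  · exact row_of (x := rep 1) rfl (hadj 1) r0 r3 LM_zero (LM_three t3) row1 j hj
  · exact row_of (x := rep 2) rfl (hadj 2) r0 r193 LM_zero LM_193 row2 j hj
  · exact row_of (x := rep 3) rfl (hadj 3).symm r3 r2 (LM_three t3) (LM_three t2) row3 j hj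
  · exact row_of (x := rep 4) rfl (hadj 4).symm r3 r193 (LM_three t3) LM_193 row4 j hj
  · exact row_of (x := rep 5) rfl (hadj 5).symm r3 r307872 (LM_three t3) LM_307872 row5 j hj
  · exact row_of (x := rep 6) rfl (hadj 6) r193 r199 LM_193 LM_199 row6 j hj
  · exact row_of (x := rep 7) rfl (hadj 7) r193 r308002 LM_193 LM_308002 row7 j hj
  · exact row_of (x := rep 8) rfl (hadj 8) r193 r279083 LM_193 LM_279083 row8 j hj
  · exact row_of (x := rep 9) rfl (hadj 9).symm r193 r307872 LM_193 LM_307872 row9 j hj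
  · exact row_of (x := rep 10) rfl (hadj 10) r307872 r307841 LM_307872 LM_307841 row10 j hj
  · exact row_of (x := rep 11) rfl (hadj 11) r307872 r307842 LM_307872 LM_307842 row11 j hj
  · exact row_of (x := rep 12) rfl (hadj 12) r307872 r305410 LM_307872 LM_305410 row12 j hj

/-- **The scheme.** -/
theorem sch : GSetIrr.Sch Fi24 x0 R lab rep kk Num.tau 0 where
  tr x := by
    obtain ⟨s, g, hg⟩ := x
    exact ⟨g, X.ext hg.symm⟩
  Rg g x y h := h.smul g
  Rs x y h := h.symm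
  lab_smul g hg y := lab_smul ((smul_x0 g).1 hg) y
  orb x := by
    obtain ⟨c, d, h, rfl⟩ := exists_mk x
    obtain ⟨g, j, hg, hj⟩ := can h
    have h1 : g • mk c d h = rep j := X.ext hj
    have h2 : lab (mk c d h) = j := by rw [← lab_smul hg, h1, lab_rep]
    exact ⟨g, (smul_x0 g).2 hg, by rw [h1, h2]⟩
  lab_rep := lab_rep
  hi0 := X.ext rfl
  row := row
  inv i := ⟨word (wl i), rep_smul i, lab_inv i⟩

theorem card_lab (i : Fin 13) : Nat.card {x : X // lab x = i} = sz i := by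
  have h0 : Nat.card {x : X // lab x = 0} = 1 := sch.card_zero
  have d := fun i j => sch.double i j
  have d01 := d 0 1
  have d12 := d 1 2
  have d13 := d 1 3
  have d14 := d 1 4
  have d35 := d 3 5
  have d26 := d 2 6
  have d47 := d 4 7
  have d68 := d 6 8
  have d49 := d 4 9
  have d510 := d 5 10
  have d511 := d 5 11
  have d512 := d 5 12
  have e01 : kk 0 1 = 7020 ∧ kk 1 0 = 1 := by decide +kernel
  have e12 : kk 1 2 = 2816 ∧ kk 2 1 = 351 := by decide +kernel
  have e13 : kk 1 3 = 693 ∧ kk 3 1 = 4 := by decide +kernel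
  have e14 : kk 1 4 = 2816 ∧ kk 4 1 = 1 := by decide +kernel
  have e35 : kk 3 5 = 4608 ∧ kk 5 3 = 63 := by decide +kernel
  have e26 : kk 2 6 = 3159 ∧ kk 6 2 = 2 := by decide +kernel
  have e47 : kk 4 7 = 224 ∧ kk 7 4 = 216 := by decide +kernel
  have e68 : kk 6 8 = 480 ∧ kk 8 6 = 702 := by decide +kernel
  have e49 : kk 4 9 = 2592 ∧ kk 9 4 = 36 := by decide +kernel
  have e510 : kk 5 10 = 1 ∧ kk 10 5 = 720 := by decide +kernel
  have e511 : kk 5 11 = 630 ∧ kk 11 5 = 144 := by decide +kernel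
  have e512 : kk 5 12 = 2240 ∧ kk 12 5 = 72 := by decide +kernel
  rw [e01.1, e01.2] at d01
  rw [e12.1, e12.2] at d12
  rw [e13.1, e13.2] at d13
  rw [e14.1, e14.2] at d14
  rw [e35.1, e35.2] at d35
  rw [e26.1, e26.2] at d26
  rw [e47.1, e47.2] at d47
  rw [e68.1, e68.2] at d68
  rw [e49.1, e49.2] at d49
  rw [e510.1, e510.2] at d510
  rw [e511.1, e511.2] at d511
  rw [e512.1, e512.2] at d512
  fin_cases i
  · exact h0
  · show Nat.card {x : X // lab x = 1} = 7020
    omega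
  · show Nat.card {x : X // lab x = 2} = 56320
    omega
  · show Nat.card {x : X // lab x = 3} = 1216215
    omega
  · show Nat.card {x : X // lab x = 4} = 19768320
    omega
  · show Nat.card {x : X // lab x = 5} = 88957440
    omega
  · show Nat.card {x : X // lab x = 6} = 88957440
    omega
  · show Nat.card {x : X // lab x = 7} = 20500480
    omega
  · show Nat.card {x : X // lab x = 8} = 60825600
    omega
  · show Nat.card {x : X // lab x = 9} = 1423319040
    omega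
  · show Nat.card {x : X // lab x = 10} = 123552
    omega
  · show Nat.card {x : X // lab x = 11} = 389188800
    omega
  · show Nat.card {x : X // lab x = 12} = 2767564800
    omega

theorem card_X : Nat.card X = 4860485028 := by
  rw [GSetIrr.card_fibers lab, ← sum_sz]
  exact Finset.sum_congr rfl fun i _ => card_lab i

/-- a rational irreducible character from an integral eigenvector -/
theorem exists_of_cert {μ q D S : ℤ} {V : Fin 13 → ℤ} {C : Fin 13 → Fin 13 → ℤ} (hD : D ≠ 0) (hq : q ≠ 0) (hS : S ≠ 0)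
    (hV0 : V 0 = q) (hV : ∀ i, ∑ j, (kk i j : ℤ) * V j = μ * V i) (hT : ∀ i, V (Num.tau i) = V i)
    (hC : ∀ i j, ∑ r, C i r * ((kk r j : ℤ) - if r = j then μ else 0) =
      D * ((if i = j then q else 0) - (if j = 0 then V i else 0)))
    (hK : ∑ i, (sz i : ℤ) * V i ^ 2 = S) :
    ∃ χ : IrrCharacter Fi24, (χ : Fi24 → ℂ) 1 * S = q ^ 2 * 4860485028 ∧
      ∀ σ : ℂ →+* ℂ, ∀ g, σ ((χ : Fi24 → ℂ) g) = (χ : Fi24 → ℂ) g := by
  have hF : Finite Fi24 := Cfsg.Agent.R08.FiTwentyFour.finite_Fi24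
  have hq' : (q : ℂ) ≠ 0 := by exact_mod_cast hq
  have hS' : (S : ℂ) ≠ 0 := by exact_mod_cast hS
  obtain ⟨χ, h1, h2⟩ := sch.exists_irr (fun i => (V i : ℂ) / q) μ
    (by rw [hV0, div_self hq']) (fun i => by rw [hT]) (hv_of_cert μ q V hq hV)
    (hu_of_cert μ q D V C hD hq hC) (K := S / q ^ 2) (by
      have e1 : ∀ i, (Nat.card {x : X // lab x = i} : ℂ) * ((V i : ℂ) / q) ^ 2 = ((sz i : ℂ) * V i ^ 2) / q ^ 2 := by
        intro i
        rw [card_lab, div_pow, mul_div_assoc]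
      rw [Finset.sum_congr rfl fun i _ => e1 i, ← Finset.sum_div]
      congr 1
      exact_mod_cast hK) (div_ne_zero hS' (pow_ne_zero _ hq'))
  refine ⟨χ, ?_, fun σ => h2 σ fun i => by rw [map_div₀, map_intCast, map_intCast]⟩
  rw [card_X] at h1
  push_cast at h1
  rw [← h1]
  field_simp

theorem exists_a : ∃ χ : IrrCharacter Fi24, (χ : Fi24 → ℂ) 1 = 555611 ∧
    ∀ σ : ℂ →+* ℂ, ∀ g, σ ((χ : Fi24 → ℂ) g) = (χ : Fi24 → ℂ) g := by
  obtain ⟨χ, h1, h2⟩ := exists_of_cert (q := 3520) (by norm_num) (by norm_num) (by norm_num) (by decide)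
    hVa hTa hCa hKa
  refine ⟨χ, ?_, h2⟩
  push_cast at h1
  linear_combination h1 / 108391219200

theorem exists_b : ∃ χ : IrrCharacter Fi24, (χ : Fi24 → ℂ) 1 = 79452373 ∧
    ∀ σ : ℂ →+* ℂ, ∀ g, σ ((χ : Fi24 → ℂ) g) = (χ : Fi24 → ℂ) g := by
  obtain ⟨χ, h1, h2⟩ := exists_of_cert (q := 137280) (by norm_num) (by norm_num) (by norm_num) (by decide)
    hVb hTb hCb hKb
  refine ⟨χ, ?_, h2⟩
  push_cast at h1
  linear_combination h1 / 1152888422400

end Cfsg.Agent.H492.Fi24P.Scheme
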